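import Cfsg.Agent.S5093
import Cfsg.Agent.H88.PPower
import Cfsg.Agent.H87.NormalSub
import Cfsg.Agent.H87.RS
import Cfsg.Agent.H40.Resid

set_option autoImplicit false
set_option maxHeartbeats 400000

/-!
The `p`-residual subsystem of the fusion system of a finite group is the fusion system of `O^p(G)`.
-/

namespace Cfsg.Agent.H88

open Cfsg Cfsg.FusionSystem Cfsg.Agent.H86

variable {G : Type*} [Group G]

/-- An automorphism of `P` of order prime to `p` induced by conjugation in the finite group `G` is induced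
by an element of `O^p(G)`. -/
lemma exists_pResidual_conj [Finite G] {p : ℕ} [hp : Fact p.Prime] {P : Subgroup G} {a : MulAut P} {g₀ : G}
    (H : ∀ x : P, ((a x : P) : G) = g₀ * (x : G) * g₀⁻¹) (hcop : Nat.Coprime (orderOf a) p) :
    ∃ g ∈ pResidual p G, ∀ x : P, ((a x : P) : G) = g * (x : G) * g⁻¹ := by
  have ho : orderOf g₀ ≠ 0 := (orderOf_pos g₀).ne'
  set e := (orderOf g₀).factorization p with he
  set n' := orderOf g₀ / p ^ e with hn'
  have hmul : p ^ e * n' = orderOf g₀ := Nat.ordProj_mul_ordCompl_eq_self (orderOf g₀) p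
  have hcopn : Nat.Coprime p n' := Nat.coprime_ordCompl hp.out ho
  have hco : Nat.Coprime (p ^ e) (orderOf a) := (Nat.Coprime.pow_right e hcop).symm
  obtain ⟨k, hk0, hk1⟩ := Nat.chineseRemainder hco 0 1
  have hdvd : p ^ e ∣ k := (Nat.modEq_zero_iff_dvd).1 hk0
  have hpow : (g₀ ^ k) ^ n' = 1 := by
    rw [← pow_mul]
    apply orderOf_dvd_iff_pow_eq_one.mp
    rw [← hmul]
    exact Nat.mul_dvd_mul hdvd dvd_rfl
  have hord : Nat.Coprime (orderOf (g₀ ^ k)) p :=
    Nat.Coprime.coprime_dvd_left (orderOf_dvd_of_pow_eq_one hpow) hcopn.symm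
  refine ⟨g₀ ^ k, Subgroup.subset_closure hord, fun x => ?_⟩
  have hak : a ^ k = a := Cfsg.Agent.H87.pow_eq_self_of_modEq (pow_orderOf_eq_one a) hk1
  rw [← autInducedBy_pow H k x, hak]

/-- The `p`-residual subsystem of `F_S(G)` is `F_{S ∩ O^p(G)}(O^p(G))`. -/
theorem pResidual_group_hom [Finite G] (p : ℕ) [Fact p.Prime] (S : Sylow p G) {T : Subgroup G}
    (hT : T = (S : Subgroup G) ⊓ pResidual p G) (E : FusionSystem T) (hEsat : E.IsSaturated p)
    (hEidx : E.HasPPowerIndexIn (groupFusionSystem (S : Subgroup G)) p)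
    (h : (S : Subgroup G) ⊓ pResidual p G ≤ pResidual p G) :
    ∀ P : Subgroup G, E.Hom P =
      (fusionSystemOfSubgroup (pResidual p G) ((S : Subgroup G) ⊓ pResidual p G) h).Hom P := by
  subst hT
  have hSp : IsPGroup p (S : Subgroup G) := S.isPGroup'
  have hT'p : IsPGroup p ((S : Subgroup G) ⊓ pResidual p G : Subgroup G) := hSp.to_le inf_le_left
  have hn : (pResidual p G).Normal := Cfsg.Agent.H40.pResidual_normal p G
  have hnorm : (⊤ : Subgroup G) ≤ Subgroup.normalizer ((pResidual p G : Subgroup G) : Set G) := by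
    intro x _
    rw [Subgroup.mem_normalizer_iff]
    intro y
    constructor
    · intro hy
      exact hn.conj_mem y hy x
    · intro hy
      have := hn.conj_mem _ hy x⁻¹
      simpa [mul_assoc] using this
  have hsyl : Cfsg.Agent.H87.IsSylIn p ((S : Subgroup G) ⊓ pResidual p G) (pResidual p G) :=
    Cfsg.Agent.H87.IsSylIn.inf_of_normal (Cfsg.Agent.H87.Sylow.isSylIn_of_le S le_top) le_top le_top hnorm
  have hF₀sat := Cfsg.Agent.H87.fusionSystemOfSubgroup_saturated h hsyl
  have hF₀F : (fusionSystemOfSubgroup (pResidual p G) ((S : Subgroup G) ⊓ pResidual p G) h).IsSubsystemOf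
      (groupFusionSystem (S : Subgroup G)) := by
    rintro P φ ⟨hP, hφ, g, -, Hg⟩
    exact ⟨hP.trans inf_le_left, fun x => (Subgroup.mem_inf.1 (hφ x)).1, g, Hg⟩
  have hhyp : (groupFusionSystem (S : Subgroup G)).hyperfocalSubgroup p =
      (S : Subgroup G) ⊓ pResidual p G := Cfsg.Agent.S5093.result p S
  have hF₀idx : (fusionSystemOfSubgroup (pResidual p G) ((S : Subgroup G) ⊓ pResidual p G) h).HasPPowerIndexIn
      (groupFusionSystem (S : Subgroup G)) p := by
    refine ⟨hF₀F, hhyp.le, fun P hP => ?_⟩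
    rw [Subgroup.map_le_iff_le_comap]
    unfold pResidual
    rw [Subgroup.closure_le]
    intro a ha
    have hPS : P ≤ (S : Subgroup G) := hP.trans inf_le_left
    have hcop : Nat.Coprime (orderOf (a : MulAut P)) p := by
      rw [Subgroup.orderOf_coe]
      exact ha
    obtain ⟨-, -, g₀, hg₀⟩ := mor_groupFusionSystem_iff.1 ((mem_autGroup_iff hPS _).1 a.2)
    have H : ∀ x : P, (((a : MulAut P) x : P) : G) = g₀ * (x : G) * g₀⁻¹ := fun x => by
      rw [← autFun_apply]
      exact hg₀ x x.2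
    obtain ⟨g, hg, Hg⟩ := exists_pResidual_conj H hcop
    show (a : MulAut P) ∈ (fusionSystemOfSubgroup (pResidual p G)
      ((S : Subgroup G) ⊓ pResidual p G) h).autGroup P
    rw [mem_autGroup_iff hP, Cfsg.Agent.H87.mor_fusionSystemOfSubgroup_iff]
    exact ⟨hP, fun x hx => hP (autFun_mem _ hx), g, hg, fun x hx => by
      rw [autFun_of_mem _ hx]
      exact Hg ⟨x, hx⟩⟩
  have d1 := subsystem_of_pPowerIndex hT'p E hEsat hEidx.1 inf_le_left _ le_rfl hF₀idx
  have d2 := subsystem_of_pPowerIndex hT'p _ hF₀sat hF₀F inf_le_left E le_rfl hEidx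
  intro P
  exact Set.Subset.antisymm (d1 P) (d2 P)

end Cfsg.Agent.H88
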