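import Cfsg.Agent.H88.PackGrp

set_option autoImplicit false
set_option maxHeartbeats 4000000
set_option maxRecDepth 100000

/-!
Certificate data (generated): a polycyclic generating sequence of a Sylow `2`-subgroup adapted to a
chain of characteristic subgroups.
-/

namespace Cfsg.Agent.H88.M12D

open Cfsg Cfsg.Agent.H9 Cfsg.Agent.H34 Cfsg.Agent.H88.PG

/-- The generating sequence. -/
def gs : List ℕ := [608405391266436187982588441666881568, 735500604421669808992593446508235808, 222761249673107463048829017964676194, 719923664328491199848526586197411872, 735548533734033527546468929854573569, 970499966350631336865513127433832480]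

theorem chain_ok : chainB gs = true := by decide +kernel

theorem strict_ok : strictB gs = true := by decide +kernel

theorem exp8_ok : exp8B (gen gs) = true := by decide +kernel

theorem lvl0 : Lvl gs := lvl_of_chainB chain_ok

theorem lvl (i : ℕ) : Lvl (gs.drop i) := lvl_of_chainB (chainB_drop gs i chain_ok)

theorem grp_drop_le (i : ℕ) : grp (gs.drop i) ≤ grp gs :=
  grp_mono (fun _ hg => List.mem_of_mem_drop hg)

theorem char0 : CharIn (grp gs) (grp (gs.drop 0)) := CharIn.self _

theorem char6 : CharIn (grp gs) (grp (gs.drop 6)) := by
  have h : gs.drop 6 = [] := rfl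
  rw [h, grp_nil]
  exact CharIn.bot _

/-- Certificate: the generators as products of squares. -/
def cert3 : List (ℕ × List ℕ) := [(719923664328491199848526586197411872, [233950865888990746377447415904013344]), (735548533734033527546468929854573569, [222761249673107463048829017964676194]), (970499966350631336865513127433832480, [719923664328491199848526586197411872])]

theorem char3 : CharIn (grp gs) (grp (gs.drop 3)) := by
  have h := agemo_eq (lvl 0) (lvl 3) (cert := cert3) (by decide +kernel) (by decide +kernel)
    (by decide +kernel)
  rw [← h]
  exact char0.agemo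

theorem char2 : CharIn (grp gs) (grp (gs.drop 2)) := by
  have h := cmod_eq lvl0 (lvl 3) (lvl 6) (lvl 2) (grp_drop_le 3) (grp_drop_le 2)
    (fun s hs x hx => char6.conj_mem hs hx) exp8_ok (by decide +kernel) (by decide +kernel)
  rw [← h]
  exact char3.cmod char6

/-- Certificate: the generators as products of elements of the given order. -/
def cert4 : List (ℕ × List ℕ) := [(735548533734033527546468929854573569, [735548533734033527546468929854573569]), (970499966350631336865513127433832480, [970499966350631336865513127433832480])]

theorem char4 : CharIn (grp gs) (grp (gs.drop 4)) := by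
  have h := ord_eq (lvl 3) (lvl 4) (m := 1) (cert := cert4) (by decide +kernel) (by decide +kernel)
    (by decide +kernel)
  rw [← h]
  exact char3.ord 1

theorem char1 : CharIn (grp gs) (grp (gs.drop 1)) := by
  have h := cmod_eq lvl0 (lvl 2) (lvl 4) (lvl 1) (grp_drop_le 2) (grp_drop_le 1)
    (fun s hs x hx => char4.conj_mem hs hx) exp8_ok (by decide +kernel) (by decide +kernel)
  rw [← h]
  exact char2.cmod char4

theorem char5 : CharIn (grp gs) (grp (gs.drop 5)) := by
  have h := cmod_eq lvl0 (lvl 0) (lvl 6) (lvl 5) (grp_drop_le 0) (grp_drop_le 5)
    (fun s hs x hx => char6.conj_mem hs hx) exp8_ok (by decide +kernel) (by decide +kernel)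
  rw [← h]
  exact char0.cmod char6

/-- The automorphism group of the Sylow subgroup is a `2`-group. -/
theorem aut_isPGroup : IsPGroup 2 (MulAut (grp gs)) := by
  refine isPGroup_mulAut_of_chars chain_ok ?_
  intro i hi
  have hlen : gs.length = 6 := rfl
  rw [hlen] at hi
  interval_cases i
  · exact char0
  · exact char1
  · exact char2
  · exact char3
  · exact char4
  · exact char5
  · exact char6

end Cfsg.Agent.H88.M12D
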