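import Cfsg.Agent.H88.SylFus
import Cfsg.Agent.H88.M12Data
import Cfsg.Agent.H9.M11b
import Cfsg.Agent.H33.DodMax

set_option autoImplicit false
set_option maxHeartbeats 4000000
set_option maxRecDepth 100000

/-!
The `2`-fusion system of the Mathieu group `M₁₂` is simple: fusion certificate for the explicit
Sylow `2`-subgroup.
-/

namespace Cfsg.Agent.H88.M12D

open Cfsg Cfsg.Agent.H9 Cfsg.Agent.H34 Cfsg.Agent.H88.PG
open scoped Pointwise

/-- Fusion certificate (generated): conjugating elements, words in the known elements, results. -/
def steps : List (ℕ × List ℕ × ℕ) := [(892089278896178042856537437944422401, [970499966350631336865513127433832480], 965346966670364367458681901213092896), (970492314251022752649085845210470691, [970499966350631336865513127433832480], 970452037038246367669431024360720385), (222791694510236431128882130731485574, [970452037038246367669431024360720385], 716077585160412467072142696091060225), (475936462394934765121151923860488195, [970452037038246367669431024360720385], 237088193432378916389358651429618755), (984730288765199910941993611765580802, [970452037038246367669431024360720385, 965346966670364367458681901213092896], 983116567191296540113908308675428450), (984818244535754528103549039458486304,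 [237088193432378916389358651429618755, 983116567191296540113908308675428450, 716077585160412467072142696091060225, 965346966670364367458681901213092896], 608405391266436187982588441666881568), (984818244535754528103549039458486304, [716077585160412467072142696091060225, 970452037038246367669431024360720385, 965346966670364367458681901213092896], 735500604421669808992593446508235808), (984818244535754528103549039458486304, [237088193432378916389358651429618755, 970452037038246367669431024360720385], 222761249673107463048829017964676194), (984818244535754528103549039458486304, [716077585160412467072142696091060225, 970452037038246367669431024360720385], 719923664328491199848526586197411872), (984818244535754528103549039458486304, [716077585160412467072142696091060225, 965346966670364367458681901213092896], 735548533734033527546468929854573569)]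

/-- The central involution. -/
def zc : ℕ := 970499966350631336865513127433832480

theorem gens_ok : gs.all (okF [0x5335f]) = true := by decide +kernel

theorem fus_ok : fusB [0x5335f] (gen gs) gs steps [zc] = true := by decide +kernel

theorem zc_ok : stepB zc [] = true := by decide +kernel

theorem center_le : ∀ x ∈ grp gs, (∀ h ∈ grp gs, x * h = h * x) → x ∈ grp [zc] := by
  intro x hx hc
  have h := cmod_eq lvl0 (lvl 0) (lvl 6) (lvl 5) (grp_drop_le 0) (grp_drop_le 5)
    (fun s hs x hx => char6.conj_mem hs hx) exp8_ok (by decide +kernel) (by decide +kernel)
  have h2 : gs.drop 5 = [zc] := rfl
  rw [h2] at h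
  rw [← h]
  apply Subgroup.subset_closure
  exact ⟨hx, fun h hh => ⟨1, one_mem _, by rw [one_mul]; exact hc h hh⟩⟩

theorem gs_ne : gs ≠ [] := by
  intro h
  have := congrArg List.length h
  revert this
  decide

theorem okF_mem : ∀ c, okF [0x5335f] c = true → lperm c ∈ Spor.M12 := by
  intro c hc
  have h1 := lperm_mem_SF hc
  rw [mem_SF] at h1
  have h2 : lperm c • Spor.squareDodecad = Spor.squareDodecad := by
    rw [squareDodecad_eq]
    exact h1.2 _ (by simp)
  exact ⟨h1.1, h2⟩

theorem card_sporM12 : Nat.card Spor.M12 = 95040 := by
  have e : (MulAction.stabilizer M24 Spor.squareDodecad).map M24.subtype = Spor.M12 := by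
    ext g
    constructor
    · rintro ⟨h, hh, rfl⟩
      exact ⟨h.2, hh⟩
    · rintro ⟨hg, h1⟩
      exact ⟨⟨g, hg⟩, h1, rfl⟩
  rw [← e, Subgroup.card_map_of_injective M24.subtype_injective]
  exact Cfsg.Agent.H33.card_dodecad_stabilizer _ squareDodecad_mem

/-- The `2`-fusion system of `M₁₂` is simple. -/
theorem m12_fusion_simple (S : Sylow 2 Spor.M12) :
    (groupFusionSystem (S : Subgroup Spor.M12)).IsSimple 2 := by
  refine simple_of_packed okF_mem chain_ok strict_ok gens_ok gs_ne ?_ aut_isPGroup zc_ok
    center_le fus_ok S
  rw [card_sporM12]
  have hlen : gs.length = 6 := rfl
  rw [hlen]
  norm_num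

end Cfsg.Agent.H88.M12D
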