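import Cfsg.Agent.H88.AltFDefs
import Cfsg.Agent.H88.FamCrit
import Cfsg.Agent.H88.O7Fus

set_option autoImplicit false
set_option maxHeartbeats 1000000

/-!
helper88: a simplicity criterion for the fusion system of a finite group `G` on a Sylow subgroup,
from a self-centralizing subgroup `B` whose normalizer contains the normalizers of the
`p`-subgroups containing it, a self-centralizing `Q ≤ R1`, and elements `d` linking the two.
-/

namespace Cfsg.Agent.H88.AltF

open Cfsg Cfsg.FusionSystem Cfsg.Agent.H86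

variable {G : Type*} [Group G]

open scoped Pointwise

/-- A self-centralizing subgroup of `S` is centric in the fusion system of `G` on `S`. -/
theorem centric_of_centralizer_le (S E : Subgroup G) (hES : E ≤ S)
    (hEc : Subgroup.centralizer (E : Set G) ≤ E) : (groupFusionSystem S).IsCentric E := by
  refine ⟨hES, fun Q hQ => ?_⟩
  obtain ⟨f, hf, rfl⟩ := isConj_iff.1 hQ
  obtain ⟨-, -, g, hg⟩ := mor_groupFusionSystem_iff.1 hf
  intro x hx
  have hxc : x ∈ Subgroup.centralizer ((imgS E f : Subgroup G) : Set G) := hx.2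
  have h2 : g⁻¹ * x * g ∈ Subgroup.centralizer (E : Set G) := by
    rw [Subgroup.mem_centralizer_iff]
    intro e he
    have h3 : f e ∈ imgS E f := (hf.mem_imgS).2 ⟨e, he, rfl⟩
    have h4 := (Subgroup.mem_centralizer_iff.1 hxc) (f e) h3
    rw [hg e he] at h4
    have e1 : e * (g⁻¹ * x * g) = g⁻¹ * (g * e * g⁻¹ * x) * g := by group
    have e2 : g⁻¹ * x * g * e = g⁻¹ * (x * (g * e * g⁻¹)) * g := by group
    rw [e1, e2, h4]
  have h5 := hEc h2
  have h6 : f (g⁻¹ * x * g) ∈ imgS E f := (hf.mem_imgS).2 ⟨_, h5, rfl⟩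
  rw [hg _ h5] at h6
  have e3 : g * (g⁻¹ * x * g) * g⁻¹ = x := by group
  rwa [e3] at h6

/-- `x` normalizes `R` and conjugation by `x` on `R` is a map of `E`. -/
def Good {S : Subgroup G} (E : FusionSystem S) (x : G) (R : Subgroup G) : Prop :=
  x ∈ Subgroup.normalizer (R : Set G) ∧ Mor E R (fun z => x * z * x⁻¹)

section good

variable {S : Subgroup G} {E : FusionSystem S} {R Q : Subgroup G} {x y : G}

theorem good_one (hRS : R ≤ S) : Good E 1 R :=
  ⟨one_mem _, (Mor.id E hRS).congr (fun x _ => by simp)⟩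

theorem good_mul (hx : Good E x R) (hy : Good E y R) : Good E (x * y) R := by
  obtain ⟨hx, hmx⟩ := hx
  obtain ⟨hy, hmy⟩ := hy
  refine ⟨mul_mem hx hy, (hmy.comp hmx (fun z hz =>
    (Subgroup.mem_normalizer_iff.1 hy z).1 hz)).congr (fun z _ => ?_)⟩
  show x * (y * z * y⁻¹) * x⁻¹ = x * y * z * (x * y)⁻¹
  group

theorem good_inv [Finite R] (hx : Good E x R) : Good E x⁻¹ R := by
  obtain ⟨hx, hmx⟩ := hx
  refine ⟨inv_mem hx, ?_⟩
  have hmaps : ∀ z ∈ R, x * z * x⁻¹ ∈ R := fun z hz => (Subgroup.mem_normalizer_iff.1 hx z).1 hz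
  have himg : imgS R (fun z => x * z * x⁻¹) = R := imgS_eq_of_maps hmx hmaps
  have hinv := hmx.inv
  rw [himg] at hinv
  refine hinv.congr (fun z hz => ?_)
  have hz' : x⁻¹ * z * x ∈ R := by
    have := (Subgroup.mem_normalizer_iff.1 (inv_mem hx) z).1 hz
    rwa [inv_inv] at this
  have h2 : z = (fun z => x * z * x⁻¹) (x⁻¹ * z * x) := by
    show z = x * (x⁻¹ * z * x) * x⁻¹
    group
  conv_lhs => rw [h2]
  rw [invOn_apply hmx.injOn hz', inv_inv]

theorem good_down (hQR : Q ≤ R) (hxQ : x ∈ Subgroup.normalizer (Q : Set G)) (h : Good E x R) :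
    Good E x Q :=
  ⟨hxQ, h.2.restrict hQR⟩

end good

/-- Going up from a self-centralizing subgroup. -/
theorem good_up [Finite G] {p : ℕ} [Fact p.Prime] (S : Sylow p G)
    {E : FusionSystem (S : Subgroup G)} (hEsat : E.IsSaturated p)
    (hle : E.IsSubsystemOf (groupFusionSystem (S : Subgroup G)))
    {Q R : Subgroup G} (hQR : Q ≤ R) (hRS : R ≤ (S : Subgroup G))
    (hcQ : Subgroup.centralizer (Q : Set G) ≤ Q) {x : G}
    (hxR : x ∈ Subgroup.normalizer (R : Set G)) (h : Good E x Q) : Good E x R := by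
  refine ⟨hxR, ?_⟩
  have hmor : Mor (groupFusionSystem (S : Subgroup G)) R (fun z => x * z * x⁻¹) :=
    mor_groupFusionSystem_iff.2 ⟨hRS,
      fun z hz => hRS ((Subgroup.mem_normalizer_iff.1 hxR z).1 hz), x, fun _ _ => rfl⟩
  exact H90.mor_of_centric_restrict S.isPGroup' (groupFusionSystem_saturated p S) hEsat hle hmor
    hQR (centric_of_centralizer_le _ Q (hQR.trans hRS) hcQ) h.2

/-- Elements of `p`-power order of the normalizer of `R ≤ S` are good on `R`, for a subsystem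
over `S` invariant in the fusion system of `G`. -/
theorem good_of_pElement [Finite G] {p : ℕ} [Fact p.Prime] (S : Sylow p G)
    {E : FusionSystem (S : Subgroup G)}
    (hE : E.IsInvariantIn (groupFusionSystem (S : Subgroup G)))
    {R : Subgroup G} (hRS : R ≤ (S : Subgroup G)) {t : G}
    (htN : t ∈ Subgroup.normalizer (R : Set G)) {k : ℕ} (hk : orderOf t = p ^ k) :
    Good E t R := by
  refine ⟨htN, ?_⟩
  obtain ⟨hEF, -, hAI, hFr⟩ := (H87.isInvariantIn_iff le_rfl).1 hE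
  have hSI : H87.StrongInv E (groupFusionSystem (S : Subgroup G)) :=
    H87.strongInv_of_invariant hEF hAI hFr
  have hRp : IsPGroup p R := S.isPGroup'.to_le hRS
  have htp : IsPGroup p (Subgroup.zpowers t) :=
    IsPGroup.of_card (n := k) (by rw [Nat.card_zpowers, hk])
  have hP : IsPGroup p (Subgroup.zpowers t ⊔ R : Subgroup G) :=
    IsPGroup.to_sup_of_normal_right' htp hRp (Subgroup.zpowers_le.2 htN)
  obtain ⟨P', hP'⟩ := hP.exists_le_sylow
  obtain ⟨c, hc⟩ := MulAction.exists_smul_eq G P' S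
  have hSP : (S : Subgroup G) = MulAut.conj c • (P' : Subgroup G) := by
    rw [← hc, Sylow.coe_subgroup_smul]
  have hmem : ∀ x, x ∈ (S : Subgroup G) ↔ c⁻¹ * x * c ∈ (P' : Subgroup G) := by
    intro x
    rw [hSP, Subgroup.mem_pointwise_smul_iff_inv_smul_mem, MulAut.smul_def,
      MulAut.conj_inv_apply]
  have hconj : ∀ y ∈ Subgroup.zpowers t ⊔ R, c * y * c⁻¹ ∈ (S : Subgroup G) := by
    intro y hy
    rw [hmem]
    have e : c⁻¹ * (c * y * c⁻¹) * c = y := by group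
    rw [e]
    exact hP' hy
  -- the conjugate `R'` of `R` in `S`
  have hR'S : R.map (MulAut.conj c).toMonoidHom ≤ (S : Subgroup G) := by
    rintro _ ⟨r, hr, rfl⟩
    exact hconj r (le_sup_right (a := Subgroup.zpowers t) hr)
  have ht'S : c * t * c⁻¹ ∈ (S : Subgroup G) :=
    hconj t (le_sup_left (b := R) (Subgroup.mem_zpowers t))
  have hf : Mor E (R.map (MulAut.conj c).toMonoidHom)
      (fun z => (c * t * c⁻¹) * z * (c * t * c⁻¹)⁻¹) := Mor.conj E hR'S ht'S
  have hfR' : ∀ z ∈ R.map (MulAut.conj c).toMonoidHom,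
      (c * t * c⁻¹) * z * (c * t * c⁻¹)⁻¹ ∈ R.map (MulAut.conj c).toMonoidHom := by
    rintro _ ⟨r, hr, rfl⟩
    refine ⟨t * r * t⁻¹, (Subgroup.mem_normalizer_iff.1 htN r).1 hr, ?_⟩
    show c * (t * r * t⁻¹) * c⁻¹ = (c * t * c⁻¹) * (c * r * c⁻¹) * (c * t * c⁻¹)⁻¹
    group
  have hg : Mor (groupFusionSystem (S : Subgroup G)) (R.map (MulAut.conj c).toMonoidHom)
      (fun z => c⁻¹ * z * c⁻¹⁻¹) := by
    refine mor_groupFusionSystem_iff.2 ⟨hR'S, ?_, c⁻¹, fun _ _ => rfl⟩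
    rintro _ ⟨r, hr, rfl⟩
    have e : c⁻¹ * (c * r * c⁻¹) * c⁻¹⁻¹ = r := by group
    show c⁻¹ * (c * r * c⁻¹) * c⁻¹⁻¹ ∈ (S : Subgroup G)
    rw [e]
    exact hRS hr
  obtain ⟨χ, hχ, hχeq⟩ := hSI _ _ _ _ le_rfl hR'S hf hfR' hg
  have himg : imgS (R.map (MulAut.conj c).toMonoidHom) (fun z => c⁻¹ * z * c⁻¹⁻¹) = R := by
    ext y
    rw [hg.mem_imgS]
    constructor
    · rintro ⟨_, ⟨r, hr, rfl⟩, rfl⟩
      have e : c⁻¹ * (c * r * c⁻¹) * c⁻¹⁻¹ = r := by group
      show c⁻¹ * (c * r * c⁻¹) * c⁻¹⁻¹ ∈ R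
      rw [e]
      exact hr
    · intro hy
      refine ⟨c * y * c⁻¹, ⟨y, hy, rfl⟩, ?_⟩
      show c⁻¹ * (c * y * c⁻¹) * c⁻¹⁻¹ = y
      group
  rw [himg] at hχ
  refine hχ.congr (fun y hy => ?_)
  have h1 := hχeq (c * y * c⁻¹) ⟨y, hy, rfl⟩
  have e1 : c⁻¹ * (c * y * c⁻¹) * c⁻¹⁻¹ = y := by group
  have e2 : c⁻¹ * ((c * t * c⁻¹) * (c * y * c⁻¹) * (c * t * c⁻¹)⁻¹) * c⁻¹⁻¹ = t * y * t⁻¹ := by
    group
  simp only [e1, e2] at h1
  exact h1

/-- Products of `p`-elements of the normalizer of `R ≤ S` are good on `R`. -/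
theorem good_of_closure [Finite G] {p : ℕ} [Fact p.Prime] (S : Sylow p G)
    {E : FusionSystem (S : Subgroup G)}
    (hE : E.IsInvariantIn (groupFusionSystem (S : Subgroup G)))
    {R : Subgroup G} (hRS : R ≤ (S : Subgroup G)) {g : G}
    (hg : g ∈ Subgroup.closure {y : G | y ∈ Subgroup.normalizer (R : Set G) ∧
      ∃ k : ℕ, orderOf y = p ^ k}) : Good E g R := by
  have : Finite R := inferInstance
  induction hg using Subgroup.closure_induction with
  | mem g hg =>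
    obtain ⟨hgN, k, hk⟩ := hg
    exact good_of_pElement S hE hRS hgN hk
  | one => exact good_one hRS
  | mul x y _ _ ihx ihy => exact good_mul ihx ihy
  | inv x _ ih => exact good_inv ih

/-- The criterion. -/
theorem intrinsic_crit [Finite G] (p : ℕ) [Fact p.Prime] (B Q R1 : Subgroup G) (D : Set G)
    (hR1p : IsPGroup p R1) (hBR1 : B ≤ R1) (hQR1 : Q ≤ R1) (hB1 : B ≠ ⊥)
    (hcB : Subgroup.centralizer (B : Set G) ≤ B)
    (hcQ : Subgroup.centralizer (Q : Set G) ≤ Q)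
    (hNB : ∀ S : Subgroup G, IsPGroup p S → B ≤ S →
      Subgroup.normalizer (S : Set G) ≤ Subgroup.normalizer (B : Set G))
    (hdB : ∀ d ∈ D, d ∈ Subgroup.normalizer (B : Set G))
    (hdR1 : ∀ d ∈ D, d ∈ Subgroup.normalizer (R1 : Set G))
    (hdQ : ∀ d ∈ D, d ∈ Subgroup.closure {y : G | y ∈ Subgroup.normalizer (Q : Set G) ∧
      ∃ k : ℕ, orderOf y = p ^ k})
    (hgen : ∀ g ∈ Subgroup.normalizer (B : Set G), ∃ d ∈ D,
      g * d ∈ Subgroup.closure {y : G | y ∈ Subgroup.normalizer (B : Set G) ∧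
        ∃ k : ℕ, orderOf y = p ^ k})
    (hcl : ∀ (S : Sylow p G) (T : Subgroup G), B ≤ (S : Subgroup G) → T ≤ (S : Subgroup G) →
      T ≠ ⊥ → (∀ x ∈ T, ∀ d : G, d * x * d⁻¹ ∈ (S : Subgroup G) → d * x * d⁻¹ ∈ T) →
      (S : Subgroup G) ≤ T) :
    ∃ S : Sylow p G, (groupFusionSystem (S : Subgroup G)).IsSimple p := by
  obtain ⟨S, hR1S⟩ := hR1p.exists_le_sylow
  refine ⟨S, ?_⟩
  have hSp : IsPGroup p (S : Subgroup G) := S.isPGroup'
  have hFsat := groupFusionSystem_saturated p S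
  have hBS : B ≤ (S : Subgroup G) := hBR1.trans hR1S
  have hQS : Q ≤ (S : Subgroup G) := hQR1.trans hR1S
  have hS1 : (S : Subgroup G) ≠ ⊥ := by
    intro h
    apply hB1
    rw [eq_bot_iff, ← h]
    exact hBS
  refine ⟨hFsat, hS1, fun T E hE => ?_⟩
  obtain ⟨⟨hEsat, -, hEinv⟩, -⟩ := hE
  have hTsc := hEinv.2.1
  have hTS : T ≤ (S : Subgroup G) := (stronglyClosed_iff.1 hTsc).1
  by_cases hT1 : T = ⊥
  · exact Or.inl hT1
  right
  have hST : (S : Subgroup G) ≤ T :=
    hcl S T hBS hTS hT1 (fun x hx d hd => stronglyClosed_conj_mem_of_mem hTsc hx hd)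
  have hTeq : T = (S : Subgroup G) := le_antisymm hTS hST
  subst hTeq
  refine ⟨rfl, hom_eq_of_invariant_of_aut hEinv ?_⟩
  intro α hα
  rw [autGroup_groupFusionSystem le_rfl, mem_autInducedBy_iff] at hα
  obtain ⟨g, -, hgα⟩ := hα
  have hgN : g ∈ Subgroup.normalizer ((S : Subgroup G) : Set G) :=
    H87.mem_normalizer_of_induces hgα
  suffices h : Good E g (S : Subgroup G) from
    h.2.congr (fun x hx => by rw [autFun_of_mem α hx]; exact (hgα ⟨x, hx⟩).symm)
  have : Finite B := inferInstance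
  have hdGoodB : ∀ d ∈ D, Good E d B := by
    intro d hd
    have h1 : Good E d Q := good_of_closure S hEinv hQS (hdQ d hd)
    have h2 : Good E d R1 := good_up S hEsat hEinv.1 hQR1 hR1S hcQ (hdR1 d hd) h1
    exact good_down hBR1 (hdB d hd) h2
  have hgB : g ∈ Subgroup.normalizer (B : Set G) := hNB _ hSp hBS hgN
  obtain ⟨d, hd, hgd⟩ := hgen g hgB
  have h3 : Good E (g * d) B := good_of_closure S hEinv hBS hgd
  have h4 : Good E g B := by
    have := good_mul h3 (good_inv (hdGoodB d hd))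
    rwa [mul_inv_cancel_right] at this
  exact good_up S hEsat hEinv.1 hBS le_rfl hcB hgN h4

end Cfsg.Agent.H88.AltF
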