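import Cfsg.Agent.H88.AltFModel

set_option autoImplicit false
set_option maxHeartbeats 1000000

/-!
helper88: S5165 from the model statement for `p` odd, the transport statement, and the two
statements for `p = 2`.
-/

namespace Cfsg.Agent.H88.AltF

open Cfsg Cfsg.FusionSystem

theorem two_dvd_card_alternatingGroup (n : ℕ) (hn : 4 ≤ n) :
    2 ∣ Nat.card (alternatingGroup (Fin n)) := by
  have hnt : Nontrivial (Fin n) := by
    rw [← Fintype.one_lt_card_iff_nontrivial, Fintype.card_fin]; omega
  have h1 : 2 * Nat.card (alternatingGroup (Fin n)) = n.factorial := by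
    rw [two_mul_nat_card_alternatingGroup, Nat.card_eq_fintype_card, Fintype.card_perm,
      Fintype.card_fin]
  have h2 : 4 ∣ n.factorial := by
    have h3 : (4 : ℕ).factorial ∣ n.factorial := Nat.factorial_dvd_factorial hn
    exact Dvd.dvd.trans (by decide) h3
  rw [← h1] at h2
  obtain ⟨c, hc⟩ := h2
  exact ⟨c, by omega⟩

theorem main (hModel : StmtModelOdd) (hIso : StmtIso) (hSNA : StmtSelfNormAlt)
    (hSC2 : StmtSCTwo) (n p : ℕ) (hn : 6 ≤ n) [Fact p.Prime] (hnp : p ^ 2 ≤ n) (hb : n % p ≤ 1)
    (S : Sylow p (alternatingGroup (Fin n))) :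
    (Cfsg.groupFusionSystem (S : Subgroup (alternatingGroup (Fin n)))).IsSimple p := by
  by_cases hp2 : p = 2
  · subst hp2
    have hS1 : (S : Subgroup (alternatingGroup (Fin n))) ≠ ⊥ :=
      Sylow.ne_bot_of_dvd_card S (two_dvd_card_alternatingGroup n (by omega))
    exact (fusion_of_selfnorm 2 (S : Subgroup (alternatingGroup (Fin n))) S.isPGroup' hS1
      (hSNA n hn S) (fun T hT hT1 hcl => hSC2 n hn S T hT hT1 hcl) S).2.2
  · have hp : p.Prime := Fact.out
    have hm : p ≤ n / p := by
      rw [Nat.le_div_iff_mul_le hp.pos]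
      calc p * p = p ^ 2 := (sq p).symm
        _ ≤ n := hnp
    have : Subsingleton (Fin (n % p)) := Fin.subsingleton_iff_le_one.2 hb
    obtain ⟨S₀, hS₀⟩ := hModel (Fin (n / p)) (Fin (n % p)) p hp2 (by rw [Fintype.card_fin]; exact hm)
    have hcard : Fintype.card (Pt (Fin (n / p)) (Fin (n % p)) p) = Fintype.card (Fin n) := by
      simp only [Fintype.card_sum, Fintype.card_prod, Fintype.card_fin, ZMod.card]
      rw [mul_comm]
      exact Nat.div_add_mod n p
    exact hIso _ _ (Equiv.altCongrHom (Fintype.equivOfCardEq hcard)) p S₀ S hS₀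

end Cfsg.Agent.H88.AltF
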