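import Cfsg.Agent.H88.AltFCrit

set_option autoImplicit false
set_option maxHeartbeats 1000000

/-!
helper88: the model statement for `p` odd from the pieces (S5165).
-/

namespace Cfsg.Agent.H88.AltF

open Cfsg Cfsg.FusionSystem

section ambient

variable {Γ : Type*} [Group Γ] (H : Subgroup Γ)

theorem centralizer_subgroupOf_le {X : Subgroup Γ} (hXH : X ≤ H)
    (hc : Subgroup.centralizer (X : Set Γ) ≤ X) :
    Subgroup.centralizer ((X.subgroupOf H : Subgroup H) : Set H) ≤ X.subgroupOf H := by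
  intro x hx
  rw [Subgroup.mem_subgroupOf]
  apply hc
  rw [Subgroup.mem_centralizer_iff]
  intro b hb
  have := (Subgroup.mem_centralizer_iff.1 hx) ⟨b, hXH hb⟩ (Subgroup.mem_subgroupOf.2 hb)
  exact congrArg Subtype.val this

theorem mem_normalizer_subgroupOf {X : Subgroup Γ} (hXH : X ≤ H) (x : H) :
    x ∈ Subgroup.normalizer ((X.subgroupOf H : Subgroup H) : Set H) ↔
      (x : Γ) ∈ Subgroup.normalizer (X : Set Γ) := by
  rw [← Subgroup.subgroupOf_normalizer_eq hXH, Subgroup.mem_subgroupOf]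

theorem le_map_subtype_of_subgroupOf_le {X : Subgroup Γ} (hXH : X ≤ H) {S : Subgroup H}
    (h : X.subgroupOf H ≤ S) : X ≤ S.map H.subtype := by
  intro b hb
  exact ⟨⟨b, hXH hb⟩, h (Subgroup.mem_subgroupOf.2 hb), rfl⟩

theorem coe_mem_normalizer_map {S : Subgroup H} {x : H}
    (hx : x ∈ Subgroup.normalizer (S : Set H)) :
    (x : Γ) ∈ Subgroup.normalizer ((S.map H.subtype : Subgroup Γ) : Set Γ) := by
  have hle : S.map H.subtype ≤ H := by
    rintro _ ⟨s, -, rfl⟩
    exact s.2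
  rw [← mem_normalizer_subgroupOf H hle]
  have e : (S.map H.subtype).subgroupOf H = S :=
    Subgroup.comap_map_eq_self_of_injective (Subgroup.subtype_injective H) S
  rw [e]
  exact hx

end ambient

section pullback

variable {α : Type} [Fintype α] [DecidableEq α]

/-- Elements of `pGen p X` are even and lie in the corresponding closure inside the alternating
group. -/
theorem pGen_pullback (p : ℕ) {X : Subgroup (Equiv.Perm α)} (hX : X ≤ alternatingGroup α)
    {g : Equiv.Perm α} (hg : g ∈ pGen p X) :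
    ∃ hgA : g ∈ alternatingGroup α, (⟨g, hgA⟩ : alternatingGroup α) ∈
      Subgroup.closure {y : alternatingGroup α |
        y ∈ Subgroup.normalizer ((X.subgroupOf (alternatingGroup α) :
          Subgroup (alternatingGroup α)) : Set (alternatingGroup α)) ∧
        ∃ k : ℕ, orderOf y = p ^ k} := by
  unfold pGen at hg
  induction hg using Subgroup.closure_induction with
  | mem y hy =>
    obtain ⟨hs, hN, k, hk⟩ := hy
    refine ⟨Equiv.Perm.mem_alternatingGroup.2 hs, Subgroup.subset_closure ⟨?_, k, ?_⟩⟩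
    · rw [mem_normalizer_subgroupOf _ hX]
      exact hN
    · rw [← hk]
      exact Subgroup.orderOf_mk _ _
  | one => exact ⟨one_mem _, one_mem _⟩
  | mul x y _ _ ihx ihy =>
    obtain ⟨hx, hx'⟩ := ihx
    obtain ⟨hy, hy'⟩ := ihy
    exact ⟨mul_mem hx hy, mul_mem hx' hy'⟩
  | inv x _ ih =>
    obtain ⟨hx, hx'⟩ := ih
    exact ⟨inv_mem hx, inv_mem hx'⟩

end pullback

/-- The model statement from the pieces. -/
theorem modelOdd (hCB : StmtCB) (hCQ : StmtCQ) (hNB : StmtNB) (hDQ : StmtDQ) (hDN : StmtDN)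
    (hQR : StmtQR) (hGen : StmtGen) (hSCa : StmtSCa) (hSCb : StmtSCb) (hGenP : StmtGenP) :
    StmtModelOdd := by
  intro I E _ _ _ _ _ p _ hp2 hpI
  obtain ⟨j⟩ : Nonempty (ZMod p ↪ I) :=
    Function.Embedding.nonempty_of_card_le (by rw [ZMod.card]; exact hpI)
  obtain ⟨hQR1, hR1p, hR1A, hB1⟩ := hQR I E p hp2 hpI j
  have hBR1 : baseB I E p ≤ subR1 E j := le_sup_left
  have hBA : baseB I E p ≤ alternatingGroup (Pt I E p) := hBR1.trans hR1A
  have hQA : subQ E j ≤ alternatingGroup (Pt I E p) := hQR1.trans hR1A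
  -- the elements `dEl u` are even
  have hdA : ∀ u : (ZMod p)ˣ, dEl E j u ∈ alternatingGroup (Pt I E p) := fun u =>
    (pGen_pullback p hQA (hDQ I E p hp2 j u)).1
  refine intrinsic_crit p ((baseB I E p).subgroupOf (alternatingGroup (Pt I E p)))
    ((subQ E j).subgroupOf (alternatingGroup (Pt I E p)))
    ((subR1 E j).subgroupOf (alternatingGroup (Pt I E p)))
    {d : alternatingGroup (Pt I E p) | ∃ u : (ZMod p)ˣ, (d : Equiv.Perm (Pt I E p)) = dEl E j u}
    ?_ ?_ ?_ ?_ ?_ ?_ ?_ ?_ ?_ ?_ ?_ ?_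
  · exact hR1p.comap_of_injective _ (Subgroup.subtype_injective _)
  · exact Subgroup.comap_mono hBR1
  · exact Subgroup.comap_mono hQR1
  · intro h
    apply hB1
    rw [Subgroup.subgroupOf_eq_bot] at h
    exact (disjoint_of_le_iff_left_eq_bot hBA).1 h
  · exact centralizer_subgroupOf_le _ hBA (hCB I E p)
  · exact centralizer_subgroupOf_le _ hQA (hCQ I E p j)
  · intro S hS hBS x hx
    rw [mem_normalizer_subgroupOf _ hBA]
    exact hNB I E p (S.map (alternatingGroup (Pt I E p)).subtype) (hS.map _)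
      (le_map_subtype_of_subgroupOf_le _ hBA hBS) (coe_mem_normalizer_map _ hx)
  · rintro d ⟨u, hu⟩
    rw [mem_normalizer_subgroupOf _ hBA, hu]
    exact (hDN I E p j u).1
  · rintro d ⟨u, hu⟩
    rw [mem_normalizer_subgroupOf _ hR1A, hu]
    exact (hDN I E p j u).2
  · rintro d ⟨u, hu⟩
    obtain ⟨h1, h2⟩ := pGen_pullback p hQA (hDQ I E p hp2 j u)
    have e : d = ⟨dEl E j u, h1⟩ := Subtype.ext hu
    rw [e]
    exact h2
  · intro g hg
    rw [mem_normalizer_subgroupOf _ hBA] at hg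
    obtain ⟨u, hu⟩ := hGen I E p hp2 hpI j g hg (Equiv.Perm.mem_alternatingGroup.1 g.2)
    obtain ⟨h1, h2⟩ := pGen_pullback p hBA hu
    refine ⟨⟨dEl E j u, hdA u⟩, ⟨u, rfl⟩, ?_⟩
    have e : g * ⟨dEl E j u, hdA u⟩ = ⟨(g : Equiv.Perm (Pt I E p)) * dEl E j u, h1⟩ :=
      Subtype.ext rfl
    rw [e]
    exact h2
  · intro S T hBS hTS hT1 hcl
    have hBS0 : baseB I E p ≤ (S : Subgroup (alternatingGroup (Pt I E p))).map
        (alternatingGroup (Pt I E p)).subtype := le_map_subtype_of_subgroupOf_le _ hBA hBS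
    have hBT : baseB I E p ≤ T.map (alternatingGroup (Pt I E p)).subtype := by
      refine hSCa I E p hp2 hpI _ _ (S.isPGroup'.map _) hBS0 (Subgroup.map_mono hTS) ?_ ?_
      · intro h
        exact hT1 ((Subgroup.map_eq_bot_iff_of_injective _ (Subgroup.subtype_injective _)).1 h)
      · rintro _ ⟨x, hx, rfl⟩ d hd hdS
        obtain ⟨s, hs, hsd⟩ := hdS
        have e : s = ⟨d, Equiv.Perm.mem_alternatingGroup.2 hd⟩ * x *
            (⟨d, Equiv.Perm.mem_alternatingGroup.2 hd⟩ : alternatingGroup (Pt I E p))⁻¹ :=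
          Subtype.ext hsd
        rw [e] at hs
        exact ⟨_, hcl x hx _ hs, rfl⟩
    refine (hGenP (Pt I E p) p S).trans ((Subgroup.closure_le _).2 ?_)
    rintro y ⟨hyS, hyp⟩
    have hyp' : (y : Equiv.Perm (Pt I E p)) ^ p = 1 := by
      have := congrArg Subtype.val hyp
      simpa using this
    obtain ⟨w, hw, hwB⟩ := hSCb I E p hp2 hpI (y : Equiv.Perm (Pt I E p)) hyp'
    obtain ⟨x, hx, hxw⟩ := hBT hwB
    have e : x = ⟨w, Equiv.Perm.mem_alternatingGroup.2 hw⟩ * y *
        (⟨w, Equiv.Perm.mem_alternatingGroup.2 hw⟩ : alternatingGroup (Pt I E p))⁻¹ :=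
      Subtype.ext hxw
    have h2 := hcl x hx (⟨w, Equiv.Perm.mem_alternatingGroup.2 hw⟩ :
      alternatingGroup (Pt I E p))⁻¹
    have e2 : (⟨w, Equiv.Perm.mem_alternatingGroup.2 hw⟩ : alternatingGroup (Pt I E p))⁻¹ * x *
        ((⟨w, Equiv.Perm.mem_alternatingGroup.2 hw⟩ : alternatingGroup (Pt I E p))⁻¹)⁻¹ = y := by
      rw [e]
      group
    rw [e2] at h2
    exact h2 hyS

end Cfsg.Agent.H88.AltF
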