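import Cfsg.Agent.H88.AltFDefs
import Cfsg.Agent.H86.AltFNB

set_option autoImplicit false
set_option maxHeartbeats 1000000

/-!
helper88: piece SCA of S5165: a nontrivial subgroup of a `p`-subgroup `S ⊇ B` that is closed under
fusion by even permutations contains the base group `B`.
-/

namespace Cfsg.Agent.H88.AltF

section sca

theorem sign_eq_one_of_odd_pow {α : Type} [Fintype α] [DecidableEq α] (g : Equiv.Perm α) {n : ℕ}
    (hn : Odd n) (h : g ^ n = 1) : Equiv.Perm.sign g = 1 := by
  have h1 : Equiv.Perm.sign g ^ n = 1 := by rw [← map_pow, h, map_one]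
  rcases Int.units_eq_one_or (Equiv.Perm.sign g) with h2 | h2
  · exact h2
  · rw [h2, Odd.neg_one_pow hn] at h1
    exact absurd h1 (by decide)

theorem exists_third {I : Type} [Fintype I] [DecidableEq I] (h3 : 3 ≤ Fintype.card I) (a b : I) :
    ∃ c, c ≠ a ∧ c ≠ b := by
  by_contra hcon
  push Not at hcon
  have hsub : (Finset.univ : Finset I) ⊆ {a, b} := by
    intro c _
    by_cases hca : c = a
    · simp [hca]
    · simp [hcon c hca]
  have h1 := Finset.card_le_card hsub
  have h2 : ({a, b} : Finset I).card ≤ 2 := Finset.card_le_two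
  rw [Finset.card_univ] at h1
  omega

variable {I E : Type} [Fintype I] [DecidableEq I] [Fintype E] [DecidableEq E] {p : ℕ}
  [Fact p.Prime]

omit [Fintype I] [DecidableEq I] [Fintype E] [DecidableEq E] in
theorem diagP_mul_fibP (a : I → (ZMod p)ˣ) (f : I → ZMod p) :
    diagP E a * fibP E f = fibP E (fun i => (a i : ZMod p) * f i) * diagP E a := by
  ext (⟨i, x⟩ | e)
  · simp [mul_add]
  · simp

omit [Fintype I] [DecidableEq I] [Fintype E] [DecidableEq E] in
theorem diagP_conj_fibP (a : I → (ZMod p)ˣ) (f : I → ZMod p) :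
    diagP E a * fibP E f * (diagP E a)⁻¹ = fibP E (fun i => (a i : ZMod p) * f i) := by
  rw [diagP_mul_fibP, mul_inv_cancel_right]

omit [Fintype I] [DecidableEq I] [Fintype E] [DecidableEq E] [Fact p.Prime] in
theorem baseP_mul_fibP (σ : Equiv.Perm I) (f : I → ZMod p) :
    baseP E p σ * fibP E f = fibP E (fun i => f (σ.symm i)) * baseP E p σ := by
  ext (⟨i, x⟩ | e)
  · simp
  · simp

omit [Fintype I] [DecidableEq I] [Fintype E] [DecidableEq E] [Fact p.Prime] in
theorem baseP_conj_fibP (σ : Equiv.Perm I) (f : I → ZMod p) :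
    baseP E p σ * fibP E f * (baseP E p σ)⁻¹ = fibP E (fun i => f (σ.symm i)) := by
  rw [baseP_mul_fibP, mul_inv_cancel_right]

theorem sign_baseP (σ : Equiv.Perm I) :
    Equiv.Perm.sign (baseP E p σ) = Equiv.Perm.sign σ ^ p := by
  have h1 : baseP E p σ = Equiv.Perm.sumCongr
      (Equiv.prodCongrLeft (fun _ : ZMod p => σ)) (1 : Equiv.Perm E) := by
    ext (⟨i, x⟩ | e) <;> rfl
  rw [h1, Equiv.Perm.sign_sumCongr, Equiv.Perm.sign_prodCongrLeft]
  simp [ZMod.card]

theorem sign_diagP (a : I → (ZMod p)ˣ) :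
    Equiv.Perm.sign (diagP E a) =
      ∏ i, Equiv.Perm.sign (Units.mulLeft (a i) : Equiv.Perm (ZMod p)) := by
  have h1 : diagP E a = Equiv.Perm.sumCongr
      (Equiv.prodCongrRight (fun i => (Units.mulLeft (a i) : Equiv.Perm (ZMod p))))
      (1 : Equiv.Perm E) := by
    ext (⟨i, x⟩ | e) <;> rfl
  rw [h1, Equiv.Perm.sign_sumCongr, Equiv.Perm.sign_prodCongrRight]
  simp

theorem sign_diagP_mulSingle (k : I) (u : (ZMod p)ˣ) :
    Equiv.Perm.sign (diagP E (Pi.mulSingle k u)) =
      Equiv.Perm.sign (Units.mulLeft u : Equiv.Perm (ZMod p)) := by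
  rw [sign_diagP, Finset.prod_eq_single k]
  · rw [Pi.mulSingle_eq_same]
  · intro i _ hik
    rw [Pi.mulSingle_eq_of_ne hik]
    have h1 : (Units.mulLeft (1 : (ZMod p)ˣ) : Equiv.Perm (ZMod p)) = 1 := by
      ext x; simp
    rw [h1, map_one]
  · intro h
    exact absurd (Finset.mem_univ k) h

theorem sca (hNB : StmtNB) (hCB : StmtCB) : StmtSCa := by
  intro I E _ _ _ _ _ p _ hp2 hpI S T hS hBS hTS hT1 hcl
  have hp : p.Prime := Fact.out
  have hodd : Odd p := hp.odd_of_ne_two hp2
  have h3 : 3 ≤ Fintype.card I := by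
    have := hp.two_le
    omega
  have h20 : (2 : ZMod p) ≠ 0 := by
    intro h
    have h1 : ((2 : ℕ) : ZMod p) = 0 := by exact_mod_cast h
    rw [ZMod.natCast_eq_zero_iff] at h1
    have := Nat.le_of_dvd (by norm_num) h1
    have := hp.two_le
    omega
  -- `S` consists of even permutations
  have hSeven : ∀ s ∈ S, Equiv.Perm.sign s = 1 := by
    intro s hs
    obtain ⟨k, hk⟩ := hS ⟨s, hs⟩
    have hk' : s ^ (p ^ k) = 1 := by
      have := congrArg Subtype.val hk
      simpa using this
    exact sign_eq_one_of_odd_pow s hodd.pow hk'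
  -- `T` is normal in `S`
  have hTn : ∀ s ∈ S, ∀ x ∈ T, s * x * s⁻¹ ∈ T := fun s hs x hx =>
    hcl x hx s (hSeven s hs) (S.mul_mem (S.mul_mem hs (hTS hx)) (S.inv_mem hs))
  have hSN : S ≤ Subgroup.normalizer ((baseB I E p : Subgroup (Equiv.Perm (Pt I E p))) :
      Set (Equiv.Perm (Pt I E p))) :=
    Subgroup.le_normalizer.trans (hNB I E p S hS hBS)
  -- a nontrivial element of `T ⊓ B`
  have hex : ∃ f : I → ZMod p, f ≠ 0 ∧ fibP E f ∈ T := by
    by_contra hcon
    push Not at hcon
    apply hT1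
    rw [eq_bot_iff]
    intro t ht
    have htB : t ∈ baseB I E p := by
      apply hCB I E p
      rw [Subgroup.mem_centralizer_iff]
      intro b hb
      have hcB : t * b * t⁻¹ * b⁻¹ ∈ baseB I E p :=
        (baseB I E p).mul_mem ((Subgroup.mem_normalizer_iff.1 (hSN (hTS ht)) b).1 hb)
          ((baseB I E p).inv_mem hb)
      have hcT : t * b * t⁻¹ * b⁻¹ ∈ T := by
        have h1 : b * t⁻¹ * b⁻¹ ∈ T := hTn b (hBS hb) t⁻¹ (T.inv_mem ht)
        have h2 := T.mul_mem ht h1
        have e : t * (b * t⁻¹ * b⁻¹) = t * b * t⁻¹ * b⁻¹ := by group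
        rwa [e] at h2
      obtain ⟨f, hf⟩ := hcB
      have hf0 : f = 0 := by
        by_contra hne
        exact hcon f hne (by rw [hf]; exact hcT)
      rw [hf0, fibP_zero] at hf
      have h5 : t * b * t⁻¹ * b⁻¹ * (b * t) = b * t := by rw [← hf, one_mul]
      rw [← h5]
      group
    obtain ⟨f, hf⟩ := htB
    have hf0 : f = 0 := by
      by_contra hne
      exact hcon f hne (by rw [hf]; exact ht)
    rw [hf0, fibP_zero] at hf
    rw [Subgroup.mem_bot, ← hf]
  obtain ⟨f, hf0, hfT⟩ := hex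
  let 𝒯 : Submodule (ZMod p) (I → ZMod p) :=
    { carrier := {g | fibP E g ∈ T}
      add_mem' := fun {g h} hg hh => by
        show fibP E (g + h) ∈ T
        rw [fibP_add]
        exact T.mul_mem hg hh
      zero_mem' := by
        show fibP E 0 ∈ T
        rw [fibP_zero]
        exact T.one_mem
      smul_mem' := fun c g hg => by
        show fibP E (c • g) ∈ T
        have e : c • g = c.val • g := by
          funext i
          simp
        rw [e, ← Cfsg.Agent.H86.AltF.fibP_pow]
        exact T.pow_mem hg _ }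
  have hmem : ∀ g, g ∈ 𝒯 ↔ fibP E g ∈ T := fun g => Iff.rfl
  -- invariance under the sign changes at two coordinates
  have hneg : ∀ k l : I, k ≠ l → ∀ g ∈ 𝒯,
      (fun i => (((Pi.mulSingle k (-1 : (ZMod p)ˣ) * Pi.mulSingle l (-1 : (ZMod p)ˣ) :
        I → (ZMod p)ˣ) i : (ZMod p)ˣ) : ZMod p) * g i) ∈ 𝒯 := by
    intro k l hkl g hg
    rw [hmem, ← diagP_conj_fibP]
    apply hcl _ hg
    · rw [diagP_mul, map_mul, sign_diagP_mulSingle, sign_diagP_mulSingle, Int.units_mul_self]
    · rw [diagP_conj_fibP]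
      exact hBS (fibP_mem_baseB E _)
  -- zeroing two coordinates
  have hzero : ∀ k l : I, k ≠ l → ∀ g ∈ 𝒯, (fun i => if i = k ∨ i = l then 0 else g i) ∈ 𝒯 := by
    intro k l hkl g hg
    have h1 := 𝒯.smul_mem (2⁻¹ : ZMod p) (𝒯.add_mem hg (hneg k l hkl g hg))
    convert h1 using 1
    funext i
    simp only [Pi.smul_apply, Pi.add_apply, smul_eq_mul, Pi.mul_apply]
    by_cases hik : i = k
    · subst hik
      simp [Pi.mulSingle_eq_of_ne hkl]
    · by_cases hil : i = l
      · subst hil
        simp [Pi.mulSingle_eq_of_ne (Ne.symm hkl)]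
      · simp only [hik, hil, or_self, if_false, Pi.mulSingle_eq_of_ne hik,
          Pi.mulSingle_eq_of_ne hil, Units.val_one, one_mul]
        field_simp
        ring
  obtain ⟨i0, hi0⟩ : ∃ i0, f i0 ≠ 0 := by
    by_contra h
    push Not at h
    exact hf0 (funext h)
  obtain ⟨k, hk, -⟩ := exists_third h3 i0 i0
  obtain ⟨k', hk'1, hk'2⟩ := exists_third h3 i0 k
  have hs0 : Pi.single i0 (f i0) ∈ 𝒯 := by
    have h1 := 𝒯.sub_mem hfT (hzero i0 k (Ne.symm hk) f hfT)
    have h2 := hzero k k' (Ne.symm hk'2) _ h1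
    convert h2 using 1
    funext i
    by_cases hi : i = i0
    · subst hi
      simp [Ne.symm hk, Ne.symm hk'1]
    · by_cases hik : i = k
      · simp [hik, hk]
      · by_cases hik' : i = k'
        · simp [hik', hk'1]
        · simp [hi, hik, hik']
  have hs1 : ∀ c : ZMod p, Pi.single i0 c ∈ 𝒯 := by
    intro c
    have h1 := 𝒯.smul_mem (c * (f i0)⁻¹) hs0
    convert h1 using 1
    funext i
    by_cases hi : i = i0
    · subst hi
      simp [hi0]
    · simp [hi]
  have hall : ∀ (i : I) (c : ZMod p), Pi.single i c ∈ 𝒯 := by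
    intro i c
    by_cases hi : i = i0
    · rw [hi]
      exact hs1 c
    · obtain ⟨k2, hk2i, hk2i0⟩ := exists_third h3 i i0
      have hσ : (Equiv.swap i k2 * Equiv.swap i0 k2) i0 = i := by
        rw [Equiv.Perm.mul_apply, Equiv.swap_apply_left, Equiv.swap_apply_right]
      have h1 := hcl _ (hs1 c) (baseP E p (Equiv.swap i k2 * Equiv.swap i0 k2)) (by
        rw [sign_baseP, Equiv.Perm.sign_mul, Equiv.Perm.sign_swap (Ne.symm hk2i),
          Equiv.Perm.sign_swap (Ne.symm hk2i0)]
        simp) (by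
        rw [baseP_conj_fibP]
        exact hBS (fibP_mem_baseB E _))
      rw [baseP_conj_fibP] at h1
      rw [hmem]
      convert h1 using 2
      funext x
      by_cases hx : x = i
      · subst hx
        have e : (Equiv.swap x k2 * Equiv.swap i0 k2).symm x = i0 := by
          rw [Equiv.symm_apply_eq]
          exact hσ.symm
        rw [e]
        simp
      · have e : (Equiv.swap i k2 * Equiv.swap i0 k2).symm x ≠ i0 := by
          intro h
          rw [Equiv.symm_apply_eq] at h
          exact hx (h.trans hσ)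
        simp [hx, e]
  rintro _ ⟨g, rfl⟩
  show g ∈ 𝒯
  rw [← Finset.univ_sum_single g]
  exact 𝒯.sum_mem (fun i _ => hall i (g i))

end sca

end Cfsg.Agent.H88.AltF
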