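import Cfsg.Agent.H23.IcDefs

set_option autoImplicit false

/-!
# S5751 piece LOWC: `Q (k+1) ≤ n_3 (Q k) n_3⁻¹`
-/

namespace Cfsg.Agent.H88.Ic

open Cfsg.Lie Cfsg.Agent.H23 Cfsg.Agent.H23.Ic

theorem lowC_tab : ∀ s < 240, chevE8.IsPosRoot s → 2 ≤ wN levC s →
    chevE8.IsPosRoot (chevE8.reflectRoot 3 s) ∧ wN levC s ≤ wN levC (chevE8.reflectRoot 3 s) + 1 := by
  decide +kernel

theorem lowC_rank : 3 < chevE8.rank := by decide +kernel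

theorem lowC : StLowC := by
  intro k hk
  refine rootGen_le Ic.hS _ _ ?_
  intro r hr t
  obtain ⟨hrpos, hrlev⟩ := hr
  have hr240 : r < 240 := hrpos.1
  have h2 : (2 : ℤ) ≤ wN levC r := by omega
  obtain ⟨hp', hl'⟩ := lowC_tab r hr240 hrpos h2
  rw [Subgroup.mem_map]
  refine ⟨(nn 3)⁻¹ * xU Ic.hS r t * nn 3, ?_, ?_⟩
  · have e := nU_conj' Ic.hS hPk.semN tab_E8 3 lowC_rank r hr240 t
    have e' : (nn 3)⁻¹ * xU Ic.hS r t * nn 3 = xU Ic.hS (chevE8.reflectRoot 3 r)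
        (((etaBit (etaE8.getD 3 0) (chevE8.reflectRoot 3 r) : ℤ) : ZMod 2) * t) := e
    rw [e']
    exact xU_mem_rootGen Ic.hS _ _ ⟨hp', by omega⟩ _
  · show nn 3 * ((nn 3)⁻¹ * xU Ic.hS r t * nn 3) * (nn 3)⁻¹ = xU Ic.hS r t
    group

example : Cfsg.Agent.H23.Ic.StLowC := lowC

end Cfsg.Agent.H88.Ic
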