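import Cfsg.Agent.H23.IcDefs

set_option autoImplicit false
set_option maxRecDepth 100000

/-!
# S5751 piece LOWN: `Q k ⊴ P_J` for `k ≥ 1`
-/

namespace Cfsg.Agent.H88.Ic

open Cfsg.Lie Cfsg.Agent.H23 Cfsg.Agent.H23.Ic

set_option synthInstance.maxHeartbeats 2000000 in
set_option synthInstance.maxSize 4096 in
/-- The terms of the commutator formula of two positive roots `r`, `s` are positive roots of level at
least that of `s`. -/
theorem lowN_tab : ∀ r < 240, 120 ≤ r → ∀ s < 240, 120 ≤ s →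
    ∀ c ∈ commTermsG (chainF chevE8.nroots chFE8) r s,
      chevE8.IsPosRoot c.1 ∧ wN levC s ≤ wN levC c.1 := by
  decide +kernel

set_option synthInstance.maxHeartbeats 2000000 in
set_option synthInstance.maxSize 4096 in
/-- The reflections `s_j`, `j ≠ 3`, preserve the positive roots of level at least 1 and their level. -/
theorem lowN_refl : ∀ j < 8, j ≠ 3 → ∀ r < 240, chevE8.IsPosRoot r → 1 ≤ wN levC r →
    chevE8.IsPosRoot (chevE8.reflectRoot j r) ∧ wN levC (chevE8.reflectRoot j r) = wN levC r := by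
  decide +kernel

theorem lowN_x (k : ℕ) (r : ℕ) (hr : chevE8.IsPosRoot r) (t : ZMod 2) :
    xU Ic.hS r t ∈ Subgroup.normalizer (Q k : Set GLE) := by
  by_cases hrP : (k : ℤ) ≤ wN levC r
  · exact Subgroup.le_normalizer (xU_mem_rootGen Ic.hS _ r ⟨hr, hrP⟩ t)
  · refine xU_mem_normalizer_of_comm Ic.hS (fun s => chevE8.IsPosRoot s ∧ (k : ℤ) ≤ wN levC s) r ?_ ?_ t
    · intro s hs t u
      have hsn : s < chevE8.nroots := hs.1.1
      have h1 : s ≠ r := by
        intro e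
        rw [e] at hs
        exact hrP hs.2
      have h2 : s ≠ chevE8.neg r := by
        intro e
        have hneg : chevE8.IsNegRoot (chevE8.neg r) := (tab_E8.pos_neg r hr.1).1 hr
        exact (tab_E8.pos_neg s hsn).2.2.2 ⟨hs.1, e ▸ hneg⟩
      have h3 := (Pc_iff Ic.hS r s).mp (commAll_E8 r s hr.1 hsn h1 h2) t u
      rw [mul_assoc, inv_mul_eq_iff_eq_mul, ← mul_assoc]
      exact h3
    · intro s hs c hc
      have hsn : s < chevE8.nroots := hs.1.1
      rw [chfOK_E8.commTerms r s] at hc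
      have h := lowN_tab r hr.1 ((tabHalf_E8 r hr.1).mp hr) s hsn ((tabHalf_E8 s hsn).mp hs.1) c hc
      exact ⟨h.1, le_trans hs.2 h.2⟩

theorem lowN_n (k : ℕ) (hk : 1 ≤ k) (j : ℕ) (hj : j < chevE8.rank) (hj3 : j ≠ 3) :
    nU Ic.hS (chevE8.simple j) 1 ∈ Subgroup.normalizer (Q k : Set GLE) := by
  have hj8 : j < 8 := hj
  refine mem_normalizer_rootGen Ic.hS (fun s => chevE8.IsPosRoot s ∧ (k : ℤ) ≤ wN levC s) _ ?_ ?_
  · intro r hr t
    have hr240 : r < 240 := hr.1.1
    have h1 : (1 : ℤ) ≤ wN levC r := by have := hr.2; omega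
    obtain ⟨hp, hl⟩ := lowN_refl j hj8 hj3 r hr240 hr.1 h1
    rw [nU_conj Ic.hS hPk.semN j hj r hr.1.1 t]
    exact xU_mem_rootGen Ic.hS _ _ ⟨hp, by rw [hl]; exact hr.2⟩ _
  · intro r hr t
    have hr240 : r < 240 := hr.1.1
    have h1 : (1 : ℤ) ≤ wN levC r := by have := hr.2; omega
    obtain ⟨hp, hl⟩ := lowN_refl j hj8 hj3 r hr240 hr.1 h1
    rw [nU_conj' Ic.hS hPk.semN tab_E8 j hj r hr.1.1 t]
    exact xU_mem_rootGen Ic.hS _ _ ⟨hp, by rw [hl]; exact hr.2⟩ _

theorem lowN : StLowN := by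
  intro k hk
  show chevE8.parabolicSubgroup (ZMod 2) JJ ≤ Subgroup.normalizer (Q k : Set GLE)
  rw [parabolicSubgroup_eq]
  apply sup_le
  · unfold ChevalleyDatum.borelSubgroup
    apply sup_le
    · rw [posUnipotent_eq]
      exact rootGen_le Ic.hS _ _ (fun r hr t => lowN_x k r hr t)
    · exact diagonal_le_normalizer_rootGen Ic.hS _ (fun r hr => hr.1.1)
  · unfold nGenJ
    rw [Subgroup.closure_le]
    rintro g ⟨j, hjJ, hj, hg⟩
    have e : g = nU Ic.hS (chevE8.simple j) 1 := eq_wordU Ic.hS _ _ hg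
    rw [e]
    exact lowN_n k hk j hj hjJ

example : Cfsg.Agent.H23.Ic.StLowN := lowN

end Cfsg.Agent.H88.Ic
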