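import Mathlib
import Cfsg.Agent.H64.JzDefs
import Cfsg.Agent.H64.JyDefs
import Cfsg.Agent.S2950
import Cfsg.Agent.S2952
import Cfsg.Agent.H97.JyPFacts
import Cfsg.Agent.H31.X.CharP2
import Cfsg.Agent.Helper55.J48
import Cfsg.Agent.H54.UqO2SN

/-!
# S2953 / JY-KILL2: the P-side facts (helper52's `StPSide`, post 11203)

From `Base S M T K L`, with `D := O₂(K ⊔ T)`: `|T : D| ≤ 2` in elementwise form, `T ∖ D` inverts
`K` modulo `D`, and `K` has an element `k` with `k ^ 3 = 1` outside `M`.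
-/

set_option autoImplicit false
open Cfsg

namespace Cfsg.Agent.H88.Jx

open Cfsg.Agent.H64.Jz

universe u

/-- The P-side facts, in the exact shape asked for in helper52's post 11203. -/
def StPSide : Prop := ∀ {G : Type u} [Group G] [Finite G] (S : Sylow 2 G) (M T K L : Subgroup G),
  Cfsg.Agent.H64.Jz.Base S M T K L →
  (∀ a ∈ T, ∀ b ∈ T, a ∉ pCoreOf 2 (K ⊔ T) → b ∉ pCoreOf 2 (K ⊔ T) →
    a * b ∈ pCoreOf 2 (K ⊔ T)) ∧
  (∀ x ∈ T, x ∉ pCoreOf 2 (K ⊔ T) → ∀ g ∈ K, x * g * x⁻¹ * g ∈ pCoreOf 2 (K ⊔ T)) ∧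
  ∃ k ∈ K, k ^ 3 = 1 ∧ k ∉ M

theorem pside_explicit {G : Type u} [Group G] [Finite G] (S : Sylow 2 G) (M T K L : Subgroup G)
    (hB : Base S M T K L) :
    (∀ a ∈ T, ∀ b ∈ T, a ∉ pCoreOf 2 (K ⊔ T) → b ∉ pCoreOf 2 (K ⊔ T) →
      a * b ∈ pCoreOf 2 (K ⊔ T)) ∧
    (∀ x ∈ T, x ∉ pCoreOf 2 (K ⊔ T) → ∀ g ∈ K, x * g * x⁻¹ * g ∈ pCoreOf 2 (K ⊔ T)) ∧
    ∃ k ∈ K, k ^ 3 = 1 ∧ k ∉ M := by
  have : Fact (Nat.Prime 2) := ⟨Nat.prime_two⟩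
  obtain ⟨⟨hc2, hsolv, hZ⟩, hO, hM, hMJ, hT, hTS, hK, hLmax, hKL⟩ := hB
  obtain ⟨L₀, hL₀max, hKL₀, huniq, hsub₀, hSyl₀⟩ :=
    Cfsg.Agent.S2950.result hc2 hsolv hZ hO S M hM hMJ T hT K hK
  have hLL₀ : L = L₀ := huniq L hLmax hKL
  subst hLL₀
  have hT2 : IsPGroup 2 ↥T := hT.1.1
  have hKleL : K ≤ L := le_sup_left.trans hKL
  have hKc : IsJComponent T K := hK.1.1
  obtain ⟨hgen, hKJ, hO3, -, -, -⟩ := hKc
  have hKn : (K.subgroupOf (K ⊔ T)).Normal :=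
    Cfsg.Agent.S2952.result hc2 hsolv hZ hO S M hM hMJ T hT K hK
  have hPK : K ⊔ T ≤ Subgroup.normalizer (K : Set G) :=
    (Subgroup.normal_subgroupOf_iff_le_normalizer le_sup_left).mp hKn
  have hTK : T ≤ Subgroup.normalizer (K : Set G) := le_sup_right.trans hPK
  have hQLT : pCoreOf 2 L ≤ T := Cfsg.Agent.Helper55.J48.pCoreOf_le_of_sylowIn hSyl₀
  have hOK : pCoreOf 2 K ≤ K := Cfsg.Agent.H31.X.H54.pCoreOf_le K
  have hOT : pCoreOf 2 K ≤ T := (Cfsg.Agent.H54.Uq.o2sn K L hKleL hsub₀).trans hQLT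
  have hTP : T ≤ K ⊔ T := le_sup_right
  have hOnK : K ≤ Subgroup.normalizer (pCoreOf 2 K : Set G) :=
    Cfsg.Agent.H31.X.H54.le_normalizer_pCoreOf K
  have hOnT : T ≤ Subgroup.normalizer (pCoreOf 2 K : Set G) :=
    hTK.trans (Cfsg.Agent.H31.X.H54.normalizer_le_normalizer_pCoreOf K)
  have hO2 : IsPGroup 2 ↥(pCoreOf 2 K) := Cfsg.Agent.H31.X.H54.isPGroup_pCoreOf K
  -- `K` is not inside a 2-group
  have hKnot : ∀ X : Subgroup G, IsPGroup 2 ↥X → ¬ K ≤ X := by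
    intro X hX hle
    have hK2 : IsPGroup 2 ↥K := hX.to_le hle
    obtain ⟨n, hn⟩ := IsPGroup.iff_card.mp hK2
    have h3 : 3 ∣ Nat.card ↥K := by
      have h := Subgroup.relIndex_mul_relIndex (⊥ : Subgroup G) (pCoreOf 2 K) K bot_le hOK
      rw [Subgroup.relIndex_bot_left, Subgroup.relIndex_bot_left, hO3] at h
      exact Dvd.intro_left _ h
    rw [hn] at h3
    have h32 := Nat.Prime.dvd_of_dvd_pow Nat.prime_three h3
    omega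
  obtain ⟨D, k, hDT, hOD, hKD, hTD, hidx, hinv, hsq, hcube, hkK, hkO, hk3, hKO, hdich⟩ :=
    Cfsg.Agent.H97.Jy.pfacts K T (pCoreOf 2 K) hT2 hTK hOK hOT hO3 hOnK hOnT hgen
  have hDP : D ≤ K ⊔ T := hDT.trans hTP
  have hPD : K ⊔ T ≤ Subgroup.normalizer (D : Set G) := sup_le hKD hTD
  have hQeq : pCoreOf 2 (K ⊔ T) = D := by
    apply le_antisymm
    · rcases hdich (pCoreOf 2 (K ⊔ T)) (Cfsg.Agent.H31.X.H54.pCoreOf_le _)
        (Cfsg.Agent.H31.X.H54.le_normalizer_pCoreOf (K ⊔ T)) with h | h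
      · exact h
      · exact absurd h (hKnot _ (Cfsg.Agent.H31.X.H54.isPGroup_pCoreOf _))
    · exact Cfsg.Agent.H31.X.H54.le_pCoreOf hDP hPD (hT2.to_le hDT)
  rw [hQeq]
  refine ⟨hidx, fun x hx hxD g hg => hOD (hinv x hx hxD g hg), ?_⟩
  -- an element of odd order of `K` outside `M` has cube 1
  have hKM : ¬ K ≤ M := hK.2.1
  by_contra hcon
  push Not at hcon
  apply hKM
  rw [← hgen, Subgroup.closure_le]
  rintro g ⟨hgK, hgo⟩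
  have h3 : g ^ 3 = 1 :=
    Cfsg.Agent.H97.Jy.eq_one_of_odd_of_two hO2 (hcube g hgK)
      (hgo.of_dvd_nat (orderOf_pow_dvd 3))
  exact hcon g hgK h3

/-- The P-side facts, as the Prop. -/
theorem pside : StPSide.{u} := by
  intro G _ _ S M T K L hB
  exact pside_explicit S M T K L hB

example : (∀ {G : Type u} [Group G] [Finite G] (S : Sylow 2 G) (M T K L : Subgroup G),
    Cfsg.Agent.H64.Jz.Base S M T K L →
    (∀ a ∈ T, ∀ b ∈ T, a ∉ pCoreOf 2 (K ⊔ T) → b ∉ pCoreOf 2 (K ⊔ T) →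
      a * b ∈ pCoreOf 2 (K ⊔ T)) ∧
    (∀ x ∈ T, x ∉ pCoreOf 2 (K ⊔ T) → ∀ g ∈ K, x * g * x⁻¹ * g ∈ pCoreOf 2 (K ⊔ T)) ∧
    ∃ k ∈ K, k ^ 3 = 1 ∧ k ∉ M) := pside.{u}

end Cfsg.Agent.H88.Jx

#print axioms Cfsg.Agent.H88.Jx.pside
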