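import Cfsg.Agent.H52.JxDefs
import Cfsg.Agent.H82.JvCaseA
import Cfsg.Agent.H48.JyV
import Cfsg.Agent.H8.JyExA
import Cfsg.Agent.H53.JxPF
import Cfsg.Agent.H88.JxPSide

/-!
# S2953 / JY-KILL2, case (a): `V ≤ Q₁` is impossible (`StKA` of `H52.JxDefs`)

Direct route: helper82's abstract `caseA` fed with helper48's `vfacts`, helper8's `exA`
(`A ∈ 𝒜(T')`, `a ∈ A ∖ Q₁`), and the P-side facts `pside_explicit` for the configuration
`Base S L T' K' L'` (index 2, inversion, an element `k` of `K'` with `k ^ 3 = 1` outside `L`).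
-/

set_option autoImplicit false
open Cfsg

namespace Cfsg.Agent.H88.Jx

open Cfsg.Agent.H64.Jz Cfsg.Agent.H64.Jy

universe u

theorem ka_explicit {G : Type u} [Group G] [Finite G] (S : Sylow 2 G)
    (M K L T' K' L' : Subgroup G) (hR : RCtx2 S M K L T' K' L')
    (hVQ : omegaCenterOf (pCoreOf 2 L) ≤ pCoreOf 2 (K' ⊔ T')) : False := by
  obtain ⟨hB, hN, hB', hT'⟩ := hR
  obtain ⟨hV4, hV2, hNV, -, -, hTI⟩ := Cfsg.Agent.H48.Jy.vfacts S M K L T' K' L' hB hN hB' hT'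
  obtain ⟨hidx, hinv, k, hkK, hk3, hkL⟩ := pside_explicit S L T' K' L' hB'
  obtain ⟨A, a, hAT, -, hAe, hmax, -, haA, haQ⟩ := Cfsg.Agent.H8.Jy.exA S L T' K' L' hB'
  have hQT : pCoreOf 2 (K' ⊔ T') ≤ T' := (Cfsg.Agent.H53.Jx.pf S L T' K' L' hB').1
  have hPQ : K' ⊔ T' ≤ Subgroup.normalizer (pCoreOf 2 (K' ⊔ T') : Set G) :=
    (Cfsg.Agent.H53.Jx.pf S L T' K' L' hB').2.2
  have hT'S : T' ≤ (S : Subgroup G) := hB'.2.2.2.2.2.1
  have hSL : (S : Subgroup G) ≤ L := Subgroup.le_normalizer.trans hN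
  have hT'N : T' ≤ Subgroup.normalizer (omegaCenterOf (pCoreOf 2 L) : Set G) := by
    rw [hNV]
    exact hT'S.trans hSL
  refine Cfsg.Agent.H82.Jv.caseA T' (pCoreOf 2 (K' ⊔ T')) (omegaCenterOf (pCoreOf 2 L)) A k a
    hQT hVQ hV4 hV2 ?_ (hQT.trans hT'N) (hPQ (Subgroup.mem_sup_left hkK)) hk3 ?_ hAT hAe hmax
    haA (hT'N (hAT haA)) (hinv a (hAT haA) haQ k hkK) ?_
  · intro g hg
    rw [hNV]
    exact hTI g hg
  · rw [hNV]
    exact hkL
  · intro t ht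
    by_cases htQ : t ∈ pCoreOf 2 (K' ⊔ T')
    · exact Or.inl htQ
    · exact Or.inr (hidx t (hAT ht) a (hAT haA) htQ haQ)

/-- KA: the case `V ≤ Q₁` of JY-KILL2 is impossible. -/
theorem ka : Cfsg.Agent.H52.Jx.StKA.{u} := by
  intro G _ _ S M K L T' K' L' hR hVQ
  exact ka_explicit S M K L T' K' L' hR hVQ

example : Cfsg.Agent.H52.Jx.StKA.{u} := ka.{u}

end Cfsg.Agent.H88.Jx

#print axioms Cfsg.Agent.H88.Jx.ka
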