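import Cfsg.Agent.H88.PackGrp

set_option autoImplicit false
set_option maxHeartbeats 4000000
set_option maxRecDepth 100000

/-!
Certificate data (generated): a polycyclic generating sequence of a Sylow `2`-subgroup adapted to a
chain of characteristic subgroups.
-/

namespace Cfsg.Agent.H88.M24D

open Cfsg Cfsg.Agent.H9 Cfsg.Agent.H34 Cfsg.Agent.H88.PG

/-- The generating sequence. -/
def gs : List ℕ := [890135672889881459920170460370864160, 887543322766593524731089878467774496, 901806008363488834488619133368246304, 937716937381336514799399741923920355, 960139612709388908960211975096961056, 764982281120124044949728291020179908, 975727407205111171400172582656678944, 971821815175309450842214300706641952, 61019924562689734372625233335425781, 888841872387289220024063398360090625]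

theorem chain_ok : chainB gs = true := by decide +kernel

theorem strict_ok : strictB gs = true := by decide +kernel

theorem exp8_ok : exp8B (gen gs) = true := by decide +kernel

theorem lvl0 : Lvl gs := lvl_of_chainB chain_ok

theorem lvl (i : ℕ) : Lvl (gs.drop i) := lvl_of_chainB (chainB_drop gs i chain_ok)

theorem grp_drop_le (i : ℕ) : grp (gs.drop i) ≤ grp gs :=
  grp_mono (fun _ hg => List.mem_of_mem_drop hg)

theorem char0 : CharIn (grp gs) (grp (gs.drop 0)) := CharIn.self _

theorem char10 : CharIn (grp gs) (grp (gs.drop 10)) := by
  have h : gs.drop 10 = [] := rfl
  rw [h, grp_nil]
  exact CharIn.bot _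

/-- Certificate: the generators as products of elements of the given order. -/
def cert3 : List (ℕ × List ℕ) := [(937716937381336514799399741923920355, [937716937381336514799399741923920355]), (960139612709388908960211975096961056, [487001218789105447140488521669675309, 937716937381336514799399741923920355]), (764982281120124044949728291020179908, [937716937381336514799399741923920355, 937716937381336514799399741923920355]), (975727407205111171400172582656678944, [487006106032530473977694733041933613, 937716937381336514799399741923920355]), (971821815175309450842214300706641952, [570240714312917011185446236852328619, 937716937381336514799399741923920355]), (61019924562689734372625233335425781, [458444076292262517815833892196358445, 937716937381336514799399741923920355]), (888841872387289220024063398360090625, [567645357715516263704558505766717611, 937716937381336514799399741923920355])]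

theorem char3 : CharIn (grp gs) (grp (gs.drop 3)) := by
  have h := ord_eq (lvl 0) (lvl 3) (m := 4) (cert := cert3) (by decide +kernel) (by decide +kernel)
    (by decide +kernel)
  rw [← h]
  exact char0.ord 4

/-- Certificate: the generators as products of squares. -/
def cert4 : List (ℕ × List ℕ) := [(960139612709388908960211975096961056, [890135672889881459920170460370864160]), (764982281120124044949728291020179908, [937716937381336514799399741923920355]), (975727407205111171400172582656678944, [970538063522162168884549074739961888]), (971821815175309450842214300706641952, [890134361123165276413347549057043488]), (61019924562689734372625233335425781, [462320429231288718763776551157309741]), (888841872387289220024063398360090625, [764982281120124044949728291020179908])]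

theorem char4 : CharIn (grp gs) (grp (gs.drop 4)) := by
  have h := agemo_eq (lvl 0) (lvl 4) (cert := cert4) (by decide +kernel) (by decide +kernel)
    (by decide +kernel)
  rw [← h]
  exact char0.agemo

/-- Certificate: the generators as products of elements of the given order. -/
def cert5 : List (ℕ × List ℕ) := [(764982281120124044949728291020179908, [764982281120124044949728291020179908]), (975727407205111171400172582656678944, [430413280690205821238412238203034766, 764982281120124044949728291020179908]), (971821815175309450842214300706641952, [433014539679139116185522266838505614, 764982281120124044949728291020179908]), (61019924562689734372625233335425781, [181025855528867093239522813095090514, 764982281120124044949728291020179908]), (888841872387289220024063398360090625, [764982281120124044949728291020179908, 764982281120124044949728291020179908])]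

theorem char5 : CharIn (grp gs) (grp (gs.drop 5)) := by
  have h := ord_eq (lvl 4) (lvl 5) (m := 2) (cert := cert5) (by decide +kernel) (by decide +kernel)
    (by decide +kernel)
  rw [← h]
  exact char4.ord 2

theorem char1 : CharIn (grp gs) (grp (gs.drop 1)) := by
  have h := cmod_eq lvl0 (lvl 3) (lvl 5) (lvl 1) (grp_drop_le 3) (grp_drop_le 1)
    (fun s hs x hx => char5.conj_mem hs hx) exp8_ok (by decide +kernel) (by decide +kernel)
  rw [← h]
  exact char3.cmod char5

theorem char6 : CharIn (grp gs) (grp (gs.drop 6)) := by
  have h := cmod_eq lvl0 (lvl 4) (lvl 10) (lvl 6) (grp_drop_le 4) (grp_drop_le 6)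
    (fun s hs x hx => char10.conj_mem hs hx) exp8_ok (by decide +kernel) (by decide +kernel)
  rw [← h]
  exact char4.cmod char10

theorem char2 : CharIn (grp gs) (grp (gs.drop 2)) := by
  have h := cmod_eq lvl0 (lvl 3) (lvl 6) (lvl 2) (grp_drop_le 3) (grp_drop_le 2)
    (fun s hs x hx => char6.conj_mem hs hx) exp8_ok (by decide +kernel) (by decide +kernel)
  rw [← h]
  exact char3.cmod char6

theorem char8 : CharIn (grp gs) (grp (gs.drop 8)) := by
  have h := cmod_eq lvl0 (lvl 3) (lvl 10) (lvl 8) (grp_drop_le 3) (grp_drop_le 8)
    (fun s hs x hx => char10.conj_mem hs hx) exp8_ok (by decide +kernel) (by decide +kernel)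
  rw [← h]
  exact char3.cmod char10

theorem char9 : CharIn (grp gs) (grp (gs.drop 9)) := by
  have h := cmod_eq lvl0 (lvl 0) (lvl 10) (lvl 9) (grp_drop_le 0) (grp_drop_le 9)
    (fun s hs x hx => char10.conj_mem hs hx) exp8_ok (by decide +kernel) (by decide +kernel)
  rw [← h]
  exact char0.cmod char10

theorem char7 : CharIn (grp gs) (grp (gs.drop 7)) := by
  have h := cmod_eq lvl0 (lvl 0) (lvl 9) (lvl 7) (grp_drop_le 0) (grp_drop_le 7)
    (fun s hs x hx => char9.conj_mem hs hx) exp8_ok (by decide +kernel) (by decide +kernel)
  rw [← h]
  exact char0.cmod char9

/-- The automorphism group of the Sylow subgroup is a `2`-group. -/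
theorem aut_isPGroup : IsPGroup 2 (MulAut (grp gs)) := by
  refine isPGroup_mulAut_of_chars chain_ok ?_
  intro i hi
  have hlen : gs.length = 10 := rfl
  rw [hlen] at hi
  interval_cases i
  · exact char0
  · exact char1
  · exact char2
  · exact char3
  · exact char4
  · exact char5
  · exact char6
  · exact char7
  · exact char8
  · exact char9
  · exact char10

end Cfsg.Agent.H88.M24D
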