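import Mathlib
import Cfsg.Agent.H50.AutPSLSylow
import Cfsg.Agent.H44.SLnTv
import Cfsg.Agent.H3.Critical
import Cfsg.Agent.H88.FamCrit

/-!
helper88: `PSL_n(F)` in defining characteristic: the image `Ū` of the unitriangular group has no
proper nontrivial subgroup closed under fusion (`n ≥ 3`), and its normalizer consists of classes
of upper triangular matrices.
-/

set_option autoImplicit false
set_option linter.unusedSectionVars false

namespace Cfsg.Agent.H88.Ln

open Matrix Cfsg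

open Cfsg.Agent.H50.AutPSL Cfsg.Agent.H50.GraphAut

variable {n : ℕ} {F : Type*} [Field F] [Fintype F]

local notation "PSLn" => Matrix.ProjectiveSpecialLinearGroup (Fin n) F

theorem tv_eq (u φ : Fin n → F) (h : φ ⬝ᵥ u = 0) : tv u φ h = Cfsg.Agent.H44.tv u φ h :=
  Subtype.ext rfl

/-- All nontrivial transvections are conjugate in `SL_n`, `n ≥ 3`. -/
theorem tv_conj_all (hn : 3 ≤ n) (u φ u' φ' : Fin n → F) (h : φ ⬝ᵥ u = 0) (h' : φ' ⬝ᵥ u' = 0)
    (hu : u ≠ 0) (hφ : φ ≠ 0) (hu' : u' ≠ 0) (hφ' : φ' ≠ 0) :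
    ∃ g : Matrix.SpecialLinearGroup (Fin n) F, g * tv u φ h * g⁻¹ = tv u' φ' h' := by
  obtain ⟨g₁, hg₁⟩ := Cfsg.Agent.H44.tv_conj_std hn u φ hu hφ h
  obtain ⟨g₂, hg₂⟩ := Cfsg.Agent.H44.tv_conj_std hn u' φ' hu' hφ' h'
  refine ⟨g₂⁻¹ * g₁, ?_⟩
  rw [tv_eq, tv_eq]
  have e : g₂⁻¹ * g₁ * Cfsg.Agent.H44.tv u φ h * (g₂⁻¹ * g₁)⁻¹ =
      g₂⁻¹ * (g₁ * Cfsg.Agent.H44.tv u φ h * g₁⁻¹) * g₂ := by group
  rw [e, hg₁, ← hg₂]
  group

theorem isUT_row (i₀ : Fin n) (ρ : Fin n → F) (hρ : ∀ j, j ≤ i₀ → ρ j = 0) :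
    IsUT (tvM (bv i₀) ρ) := by
  constructor
  · intro i j hji
    rw [tvM_apply, if_neg (ne_of_gt hji), zero_add]
    by_cases hi : i = i₀
    · rw [hρ j (by rw [← hi]; exact hji.le), mul_zero]
    · rw [bv_ne hi, zero_mul]
  · intro i
    rw [tvM_apply, if_pos rfl]
    by_cases hi : i = i₀
    · rw [hρ i (by rw [hi]), mul_zero, add_zero]
    · rw [bv_ne hi, zero_mul, add_zero]

theorem isUT_col (l₀ : Fin n) (v : Fin n → F) (hv : ∀ j, l₀ ≤ j → v j = 0) :
    IsUT (tvM v (bv l₀)) := by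
  constructor
  · intro i j hji
    rw [tvM_apply, if_neg (ne_of_gt hji), zero_add]
    by_cases hj : j = l₀
    · rw [hv i (by rw [← hj]; exact hji.le), zero_mul]
    · rw [bv_ne hj, mul_zero]
  · intro i
    rw [tvM_apply, if_pos rfl]
    by_cases hi : i = l₀
    · rw [hv i (by rw [hi]), zero_mul, add_zero]
    · rw [bv_ne hi, mul_zero, add_zero]

/-- No proper nontrivial subgroup of `Ū` is closed under fusion in `PSL_n(F)`, `n ≥ 3`. -/
theorem hcl_Uni {p f : ℕ} [Fact p.Prime] (hF : Fintype.card F = p ^ f) (hn : 3 ≤ n)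
    (T : Subgroup PSLn) (hT : T ≤ UniBar n F) (hT1 : T ≠ ⊥)
    (hcl : ∀ t ∈ T, ∀ c : PSLn, c * t * c⁻¹ ∈ UniBar n F → c * t * c⁻¹ ∈ T) :
    T = UniBar n F := by
  have hP1 : IsPGroup p ↥(UniBar n F) :=
    (IsPGroup.of_card (by rw [card_Uni, hF, ← pow_mul])).map _
  haveI hN : (T.subgroupOf (UniBar n F)).Normal := by
    constructor
    intro t ht u
    rw [Subgroup.mem_subgroupOf] at ht ⊢
    exact hcl _ ht (u : PSLn)
      ((UniBar n F).mul_mem ((UniBar n F).mul_mem u.2 t.2) ((UniBar n F).inv_mem u.2))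
  have hN1 : T.subgroupOf (UniBar n F) ≠ ⊥ := by
    intro h
    apply hT1
    rw [eq_bot_iff]
    intro t ht
    have h1 : (⟨t, hT ht⟩ : UniBar n F) ∈ T.subgroupOf (UniBar n F) := by
      rw [Subgroup.mem_subgroupOf]
      exact ht
    rw [h, Subgroup.mem_bot] at h1
    rw [Subgroup.mem_bot]
    exact congrArg Subtype.val h1
  obtain ⟨z, hzN, hzc, hz1⟩ := Cfsg.Agent.H3.normal_inf_center_ne_bot hP1 _ hN1
  have hzT : (z : PSLn) ∈ T := Subgroup.mem_subgroupOf.1 hzN
  have hzTv : IsTv (z : PSLn) := by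
    apply central_isTv (by omega) _ z.2
    intro y' hy'
    have h1 := Subgroup.mem_center_iff.1 hzc ⟨y', hy'⟩
    exact (congrArg Subtype.val h1).symm
  obtain ⟨u, φ, h, hu, hφ, hzeq⟩ := hzTv.exists_ne (fun h1 => hz1 (Subtype.ext h1))
  have hall : ∀ (u' φ' : Fin n → F) (h' : φ' ⬝ᵥ u' = 0), IsUT (tvM u' φ') →
      (QuotientGroup.mk (tv u' φ' h') : PSLn) ∈ T := by
    intro u' φ' h' hUT
    by_cases hu' : u' = 0
    · subst hu'
      rw [tv_zero_left]
      exact one_mem _
    by_cases hφ' : φ' = 0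
    · subst hφ'
      rw [tv_zero_right]
      exact one_mem _
    obtain ⟨g, hg⟩ := tv_conj_all hn u φ u' φ' h h' hu hφ hu' hφ'
    have h3 := hcl _ hzT (QuotientGroup.mk g) (by
      rw [hzeq, ← QuotientGroup.mk_inv, ← QuotientGroup.mk_mul, ← QuotientGroup.mk_mul, hg]
      exact ⟨_, hUT, rfl⟩)
    rwa [hzeq, ← QuotientGroup.mk_inv, ← QuotientGroup.mk_mul, ← QuotientGroup.mk_mul, hg] at h3
  have key : ∀ (r : ℕ) (s : Matrix.SpecialLinearGroup (Fin n) F), IsUT s.1 →
      (∀ i j : Fin n, r ≤ i.val → i < j → s.1 i j = 0) → (QuotientGroup.mk s : PSLn) ∈ T := by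
    intro r
    induction r with
    | zero =>
      intro s hs hr
      have h1 : s = 1 := by
        apply Subtype.ext
        ext i j
        rw [Matrix.SpecialLinearGroup.coe_one]
        rcases lt_trichotomy i j with hij | hij | hij
        · rw [hr i j (Nat.zero_le _) hij, Matrix.one_apply_ne (ne_of_lt hij)]
        · rw [hij, hs.2, Matrix.one_apply_eq]
        · rw [hs.1 i j hij, Matrix.one_apply_ne (ne_of_gt hij)]
      rw [h1]
      exact one_mem _
    | succ r ih =>
      intro s hs hr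
      by_cases hrn : r < n
      · obtain ⟨i₀, hi₀⟩ : ∃ i₀ : Fin n, i₀ = ⟨r, hrn⟩ := ⟨_, rfl⟩
        obtain ⟨ρ, hρdef⟩ : ∃ ρ : Fin n → F, ρ = fun j => if i₀ < j then -(s.1 i₀ j) else 0 :=
          ⟨_, rfl⟩
        have hρ0 : ∀ j, j ≤ i₀ → ρ j = 0 := by
          intro j hj
          rw [hρdef]
          simp only
          rw [if_neg (not_lt.2 hj)]
        have hρ1 : ∀ j, i₀ < j → ρ j = -(s.1 i₀ j) := by
          intro j hj
          rw [hρdef]
          simp only
          rw [if_pos hj]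
        have hdot : ρ ⬝ᵥ bv i₀ = 0 := by
          rw [dot_bv]
          exact hρ0 i₀ le_rfl
        have hNUT : IsUT (tvM (bv i₀) ρ) := isUT_row i₀ ρ hρ0
        have hNT := hall (bv i₀) ρ hdot hNUT
        have hs' : IsUT (s * tv (bv i₀) ρ hdot).1 := by
          rw [Matrix.SpecialLinearGroup.coe_mul]
          exact hs.mul hNUT
        have hentry : ∀ k l : Fin n,
            (s * tv (bv i₀) ρ hdot).1 k l = s.1 k l + s.1 k i₀ * ρ l := by
          intro k l
          rw [Matrix.SpecialLinearGroup.coe_mul]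
          show (s.1 * tvM (bv i₀) ρ) k l = _
          rw [tvM, Matrix.mul_add, Matrix.mul_one, Matrix.mul_vecMulVec, Matrix.add_apply,
            Matrix.vecMulVec_apply, mulVec_bv]
        have h5 := ih (s * tv (bv i₀) ρ hdot) hs' (by
          intro k l hk hkl
          rw [hentry]
          by_cases hki : k = i₀
          · rw [hki] at hkl ⊢
            rw [hs.2, one_mul, hρ1 l hkl, add_neg_cancel]
          · have hk' : r + 1 ≤ k.val := by
              have h6 : k.val ≠ r := fun h => hki (by rw [hi₀]; exact Fin.ext h)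
              omega
            have hlt : i₀ < k := by
              rw [hi₀, Fin.lt_def]
              show r < k.val
              omega
            rw [hr k l hk' hkl, hs.1 k i₀ hlt, zero_mul, add_zero])
        have e : s = (s * tv (bv i₀) ρ hdot) * (tv (bv i₀) ρ hdot)⁻¹ := by
          rw [mul_inv_cancel_right]
        rw [e, QuotientGroup.mk_mul, QuotientGroup.mk_inv]
        exact mul_mem h5 (inv_mem hNT)
      · apply ih s hs
        intro i j hi hij
        exact absurd i.isLt (by omega)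
  apply le_antisymm hT
  rintro _ ⟨s, hs, rfl⟩
  exact key n s hs (fun i j hi _ => absurd i.isLt (by omega))

end Cfsg.Agent.H88.Ln
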