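import Mathlib
import Cfsg.Agent.H88.PSLnA

/-!
helper88: `PSL_n(F)` in defining characteristic: the normalizer of the image `Ū` of the
unitriangular group consists of classes of upper triangular matrices; upper triangular matrices
are products of unitriangular ones and the diagonal elements `h_i(t)`; the subgroups `Ec e₀`,
`Ea e_last` of transvections are self-centralizing.
-/

set_option autoImplicit false
set_option linter.unusedSectionVars false

namespace Cfsg.Agent.H88.Ln

open Matrix Cfsg

open Cfsg.Agent.H50.AutPSL Cfsg.Agent.H50.GraphAut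

variable {n : ℕ} {F : Type*} [Field F] [Fintype F]

local notation "PSLn" => Matrix.ProjectiveSpecialLinearGroup (Fin n) F

/-- Elements normalizing `Ū` are classes of upper triangular matrices. -/
theorem norm_upper (g : Matrix.SpecialLinearGroup (Fin n) F)
    (hg : (QuotientGroup.mk g : PSLn) ∈
      Subgroup.normalizer ((UniBar n F : Subgroup PSLn) : Set PSLn)) :
    ∀ i j : Fin n, j < i → g.1 i j = 0 := by
  have key : ∀ (m : ℕ) (k : Fin n), k.val = m → ∀ b : Fin n, k < b → g.1 b k = 0 := by
    intro m
    induction m using Nat.strong_induction_on with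
    | _ m ih =>
      intro k hk b hkb
      have hIH : ∀ l : Fin n, l < k → g.1 k l = 0 := fun l hl =>
        ih l.val (by rw [← hk]; exact hl) l rfl k hl
      have hdot : (bv b : Fin n → F) ⬝ᵥ bv k = 0 := by
        rw [bv_dot, bv_ne (ne_of_gt hkb)]
      have hu : IsUT (tvM (bv k) (bv b : Fin n → F)) := by
        have h0 := isUT_tvM hkb (1 : F)
        rwa [one_smul] at h0
      have hmem : (QuotientGroup.mk (g⁻¹ * tv (bv k) (bv b) hdot * g) : PSLn) ∈ UniBar n F := by
        have h1 := (Subgroup.mem_normalizer_iff.1 (inv_mem hg)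
          (QuotientGroup.mk (tv (bv k) (bv b) hdot))).1 ⟨_, hu, rfl⟩
        rw [inv_inv] at h1
        exact h1
      obtain ⟨s, hs, hse⟩ := hmem
      have hs' : IsUT s.1 := hs
      have hse' : (QuotientGroup.mk s : PSLn) =
          QuotientGroup.mk (g⁻¹ * tv (bv k) (bv b) hdot * g) := hse
      obtain ⟨r, hr⟩ := (mk_eq_mk_iff _ _).1 hse'
      have hmat : tvM (bv k) (bv b) * g.1 = r • (g.1 * s.1) := by
        have h2 : g.1 * (g⁻¹ * tv (bv k) (bv b) hdot * g).1 = tvM (bv k) (bv b) * g.1 := by
          rw [← Matrix.SpecialLinearGroup.coe_mul]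
          have e : g * (g⁻¹ * tv (bv k) (bv b) hdot * g) = tv (bv k) (bv b) hdot * g := by group
          rw [e, Matrix.SpecialLinearGroup.coe_mul]
          rfl
        rw [← h2, hr, Matrix.mul_smul]
      have hr1 : r = 1 := by
        have hNN : vecMulVec (bv k) (bv b : Fin n → F) * vecMulVec (bv k) (bv b) = 0 := by
          rw [Matrix.vecMulVec_mul_vecMulVec, hdot, zero_smul, Matrix.vecMulVec_zero]
        have h3 : vecMulVec (bv k) (bv b : Fin n → F) * g.1 = g.1 * (r • s.1 - 1) := by
          rw [Matrix.mul_sub, Matrix.mul_one, Matrix.mul_smul, ← hmat, tvM, Matrix.add_mul,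
            Matrix.one_mul, add_sub_cancel_left]
        have h4 : g.1 * ((r • s.1 - 1) * (r • s.1 - 1)) = 0 := by
          rw [← Matrix.mul_assoc, ← h3, Matrix.mul_assoc, ← h3, ← Matrix.mul_assoc, hNN,
            Matrix.zero_mul]
        have h5 : (r • s.1 - 1) * (r • s.1 - 1) = 0 := by
          have h6 : (g⁻¹).1 * (g.1 * ((r • s.1 - 1) * (r • s.1 - 1))) = 0 := by
            rw [h4, Matrix.mul_zero]
          rwa [← Matrix.mul_assoc, ← Matrix.SpecialLinearGroup.coe_mul, inv_mul_cancel,
            Matrix.SpecialLinearGroup.coe_one, Matrix.one_mul] at h6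
        have h7 := congrFun (congrFun h5 k) k
        rw [Matrix.mul_apply, Finset.sum_eq_single k] at h7
        · simp only [Matrix.sub_apply, Matrix.smul_apply, Matrix.one_apply_eq, smul_eq_mul, hs'.2,
            mul_one, Matrix.zero_apply] at h7
          have h8 := mul_self_eq_zero.1 h7
          linear_combination h8
        · intro l _ hlk
          rcases lt_or_gt_of_ne hlk with h | h
          · have e : (r • s.1 - 1) k l = 0 := by
              rw [Matrix.sub_apply, Matrix.smul_apply, hs'.1 k l h, smul_zero,
                Matrix.one_apply_ne (ne_of_gt h), sub_zero]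
            rw [e, zero_mul]
          · have e : (r • s.1 - 1) l k = 0 := by
              rw [Matrix.sub_apply, Matrix.smul_apply, hs'.1 l k h, smul_zero,
                Matrix.one_apply_ne (ne_of_gt h), sub_zero]
            rw [e, mul_zero]
        · intro h
          exact absurd (Finset.mem_univ k) h
      rw [hr1, one_smul] at hmat
      have h8 := congrFun (congrFun hmat k) k
      rw [tvM, Matrix.add_mul, Matrix.one_mul, Matrix.vecMulVec_mul, Matrix.add_apply,
        Matrix.vecMulVec_apply, bv_same, one_mul, bv_vecMul, Matrix.mul_apply,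
        Finset.sum_eq_single k] at h8
      · rw [hs'.2, mul_one] at h8
        linear_combination h8
      · intro l _ hlk
        rcases lt_or_gt_of_ne hlk with h | h
        · rw [hIH l h, zero_mul]
        · rw [hs'.1 l k h, mul_zero]
      · intro h
        exact absurd (Finset.mem_univ k) h
  intro i j hji
  exact key j.val j rfl i hji

/-- Diagonal matrices normalize `Ū`. -/
theorem diag_mem_normalizer (h : Matrix.SpecialLinearGroup (Fin n) F) (d : Fin n → F)
    (hd : h.1 = Matrix.diagonal d) (hd0 : ∀ k, d k ≠ 0) :
    (QuotientGroup.mk h : PSLn) ∈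
      Subgroup.normalizer ((UniBar n F : Subgroup PSLn) : Set PSLn) := by
  apply Subgroup.mem_normalizer_fintype
  rintro _ ⟨s, hs, rfl⟩
  have hs' : IsUT s.1 := hs
  have hM' : IsUT (Matrix.of fun k l => d k * s.1 k l * (d l)⁻¹) := by
    constructor
    · intro i j hji
      show d i * s.1 i j * (d j)⁻¹ = 0
      rw [hs'.1 i j hji, mul_zero, zero_mul]
    · intro i
      show d i * s.1 i i * (d i)⁻¹ = 1
      rw [hs'.2, mul_one, mul_inv_cancel₀ (hd0 i)]
  obtain ⟨s', hs'def⟩ : ∃ s' : Matrix.SpecialLinearGroup (Fin n) F,
    s' = ⟨Matrix.of fun k l => d k * s.1 k l * (d l)⁻¹, hM'.det⟩ := ⟨_, rfl⟩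
  have hs'UT : IsUT s'.1 := by
    rw [hs'def]
    exact hM'
  have e0 : h * s = s' * h := by
    apply Subtype.ext
    rw [Matrix.SpecialLinearGroup.coe_mul, Matrix.SpecialLinearGroup.coe_mul, hd, hs'def]
    ext k l
    rw [Matrix.diagonal_mul, Matrix.mul_diagonal]
    show d k * s.1 k l = d k * s.1 k l * (d l)⁻¹ * d l
    rw [mul_assoc (d k * s.1 k l), inv_mul_cancel₀ (hd0 l), mul_one]
  have e : h * s * h⁻¹ = s' := by rw [e0, mul_inv_cancel_right]
  refine ⟨s', hs'UT, ?_⟩
  show (QuotientGroup.mk s' : PSLn) =
    QuotientGroup.mk h * QuotientGroup.mk s * (QuotientGroup.mk h)⁻¹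
  rw [← QuotientGroup.mk_inv, ← QuotientGroup.mk_mul, ← QuotientGroup.mk_mul, e]

/-- Upper triangular matrices lie in any subgroup containing `Ū` and the `h_i(t)`. -/
theorem upper_mem (K : Subgroup PSLn) (hU : UniBar n F ≤ K)
    (hH : ∀ (i₀ i₁ : Fin n) (hne : i₀ ≠ i₁), i₀.val + 1 = i₁.val → ∀ (t : F) (ht : t ≠ 0),
      (QuotientGroup.mk (Matrix.SpecialLinearGroup.diag2n hne t ht) : PSLn) ∈ K)
    (g : Matrix.SpecialLinearGroup (Fin n) F) (hg : ∀ i j : Fin n, j < i → g.1 i j = 0) :
    (QuotientGroup.mk g : PSLn) ∈ K := by
  have key : ∀ (m : ℕ) (g : Matrix.SpecialLinearGroup (Fin n) F),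
      (∀ i j : Fin n, j < i → g.1 i j = 0) → (∀ i : Fin n, m ≤ i.val → g.1 i i = 1) →
      (QuotientGroup.mk g : PSLn) ∈ K := by
    intro m
    induction m with
    | zero =>
      intro g hg hd
      exact hU ⟨g, ⟨hg, fun i => hd i (Nat.zero_le _)⟩, rfl⟩
    | succ m ih =>
      intro g hg hd
      by_cases hm : m < n
      · by_cases hm0 : m = 0
        · subst hm0
          apply ih g hg
          intro i _
          by_cases hi : i.val = 0
          · have hdet := g.2
            rw [Matrix.det_of_isUpperTriangular (fun a b hab => hg a b hab)] at hdet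
            rw [Finset.prod_eq_single i] at hdet
            · exact hdet
            · intro b _ hb
              have hb0 : b.val ≠ 0 := fun h => hb (Fin.ext (by rw [h, hi]))
              exact hd b (by omega)
            · intro h
              exact absurd (Finset.mem_univ i) h
          · exact hd i (by omega)
        · obtain ⟨i₁, hi₁⟩ : ∃ i₁ : Fin n, i₁ = ⟨m, hm⟩ := ⟨_, rfl⟩
          obtain ⟨i₀, hi₀⟩ : ∃ i₀ : Fin n, i₀ = ⟨m - 1, by omega⟩ := ⟨_, rfl⟩
          have hv1 : i₁.val = m := by rw [hi₁]
          have hv0 : i₀.val = m - 1 := by rw [hi₀]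
          have hne : i₀ ≠ i₁ := by
            intro h
            have h0 := congrArg Fin.val h
            rw [hv0, hv1] at h0
            omega
          have hadj : i₀.val + 1 = i₁.val := by
            rw [hv0, hv1]
            omega
          have ht : g.1 i₁ i₁ ≠ 0 := by
            intro h0
            have hdet := g.2
            rw [Matrix.det_of_isUpperTriangular (fun a b hab => hg a b hab),
              Finset.prod_eq_zero (f := fun i => g.1 i i) (Finset.mem_univ i₁) h0] at hdet
            exact zero_ne_one hdet
          obtain ⟨h, hh⟩ : ∃ h : Matrix.SpecialLinearGroup (Fin n) F,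
            h = Matrix.SpecialLinearGroup.diag2n hne (g.1 i₁ i₁) ht := ⟨_, rfl⟩
          have hentry : ∀ a b : Fin n, (h * g).1 a b =
              (if a = i₀ then g.1 i₁ i₁ else if a = i₁ then (g.1 i₁ i₁)⁻¹ else 1) * g.1 a b := by
            intro a b
            rw [Matrix.SpecialLinearGroup.coe_mul, hh, Matrix.SpecialLinearGroup.diag2n_coe,
              Matrix.diagonal_mul]
          have h5 := ih (h * g) (by
            intro a b hab
            rw [hentry, hg a b hab, mul_zero]) (by
            intro a ha
            rw [hentry]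
            by_cases ha1 : a = i₁
            · have ha0 : a ≠ i₀ := by
                rw [ha1]
                exact hne.symm
              rw [if_neg ha0, if_pos ha1, ha1, inv_mul_cancel₀ ht]
            · have ha0 : a ≠ i₀ := by
                intro h0
                rw [h0, hv0] at ha
                omega
              have h6 : m + 1 ≤ a.val := by
                have h7 : a.val ≠ m := fun h0 => ha1 (by rw [hi₁]; exact Fin.ext h0)
                omega
              rw [if_neg ha0, if_neg ha1, one_mul, hd a h6])
          have e : g = h⁻¹ * (h * g) := by rw [inv_mul_cancel_left]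
          rw [e, QuotientGroup.mk_mul, QuotientGroup.mk_inv]
          exact mul_mem (inv_mem (by rw [hh]; exact hH i₀ i₁ hne hadj _ ht)) h5
      · apply ih g hg
        intro i hi
        exact absurd i.isLt (by omega)
  exact key n g hg (fun i hi => absurd i.isLt (by omega))

end Cfsg.Agent.H88.Ln
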