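import Mathlib
import Cfsg.Agent.H88.PSLnB

/-!
helper88: the defining-characteristic fusion system of `PSL_n(F)`, `n ≥ 3`, is simple.
-/

set_option autoImplicit false
set_option linter.unusedSectionVars false

namespace Cfsg.Agent.H88.Ln

open Matrix Cfsg

open Cfsg.Agent.H50.AutPSL Cfsg.Agent.H50.GraphAut

variable {n : ℕ} {F : Type*} [Field F] [Fintype F]

local notation "PSLn" => Matrix.ProjectiveSpecialLinearGroup (Fin n) F

/-- `h_{ab}(t) = x_{ab}(1) x_{ba}(t-1) x_{ab}(-t⁻¹) x_{ba}(-t(t-1))`. -/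
theorem diag2n_eq {a b : Fin n} (hab : a ≠ b) (t : F) (ht : t ≠ 0) :
    Matrix.SpecialLinearGroup.diag2n hab t ht =
      Matrix.SpecialLinearGroup.transvection hab 1 *
        Matrix.SpecialLinearGroup.transvection hab.symm (t - 1) *
        Matrix.SpecialLinearGroup.transvection hab (-t⁻¹) *
        Matrix.SpecialLinearGroup.transvection hab.symm (-(t * (t - 1))) := by
  have key : Matrix.SpecialLinearGroup.transvection hab (1 : F) *
      Matrix.SpecialLinearGroup.transvection hab.symm (t - 1) =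
      Matrix.SpecialLinearGroup.diag2n hab t ht *
        (Matrix.SpecialLinearGroup.transvection hab.symm (t * (t - 1)) *
          Matrix.SpecialLinearGroup.transvection hab t⁻¹) := by
    apply Subtype.ext
    simp only [Matrix.SpecialLinearGroup.coe_mul, Matrix.SpecialLinearGroup.transvection_coe,
      Matrix.SpecialLinearGroup.diag2n_coe]
    ext k l
    rw [Matrix.diagonal_mul]
    simp only [Matrix.add_mul, Matrix.mul_add, Matrix.one_mul, Matrix.mul_one,
      Matrix.single_mul_single_same, Matrix.add_apply, Matrix.one_apply, Matrix.single_apply]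
    by_cases hka : k = a
    · have hkb : k ≠ b := fun h => hab (hka.symm.trans h)
      by_cases hla : l = a
      · have hlb : l ≠ b := fun h => hab (hla.symm.trans h)
        simp [hka, hla, hab.symm]
        all_goals (try field_simp)
        all_goals (try ring)
      · by_cases hlb : l = b
        · simp [hka, hlb, hab, hab.symm]
          all_goals (try field_simp)
          all_goals (try ring)
        · simp [hka, hab.symm, Ne.symm hla, Ne.symm hlb]
          all_goals (try field_simp)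
          all_goals (try ring)
    · by_cases hkb : k = b
      · by_cases hla : l = a
        · simp [hkb, hla, hab, hab.symm]
          all_goals (try field_simp)
          all_goals (try ring)
        · by_cases hlb : l = b
          · simp [hkb, hlb, hab, hab.symm]
            all_goals (try field_simp)
            all_goals (try ring)
          · simp [hkb, hab, hab.symm, Ne.symm hla, Ne.symm hlb]
            all_goals (try field_simp)
            all_goals (try ring)
      · simp [Ne.symm hka, Ne.symm hkb, hka, hkb]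
        all_goals (try field_simp)
        all_goals (try ring)
  rw [← neg_neg (t * (t - 1)), ← Matrix.SpecialLinearGroup.transvection_inv hab,
    ← Matrix.SpecialLinearGroup.transvection_inv hab.symm, neg_neg, key]
  group

theorem transvection_eq_tv {a b : Fin n} (hab : a ≠ b) (c : F) :
    ∃ h : (bv b : Fin n → F) ⬝ᵥ (c • bv a) = 0,
      Matrix.SpecialLinearGroup.transvection hab c = tv (c • bv a) (bv b) h := by
  have h : (bv b : Fin n → F) ⬝ᵥ (c • bv a) = 0 := by
    rw [bv_dot, Pi.smul_apply, bv_ne hab.symm, smul_zero]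
  refine ⟨h, ?_⟩
  rw [tv_eq, ← Cfsg.Agent.H44.tv_eq_transvection hab c]
  rfl

/-- Classes of transvections are `p`-elements. -/
theorem orderOf_tv (p : ℕ) [Fact p.Prime] [CharP F p] (u φ : Fin n → F) (h : φ ⬝ᵥ u = 0) :
    ∃ k : ℕ, orderOf (QuotientGroup.mk (tv u φ h) : PSLn) = p ^ k := by
  have hpow : ∀ k : ℕ, ∃ h' : (k • φ) ⬝ᵥ u = 0, tv u φ h ^ k = tv u (k • φ) h' := by
    intro k
    induction k with
    | zero =>
      refine ⟨by rw [zero_smul, zero_dotProduct], ?_⟩
      rw [pow_zero]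
      apply Subtype.ext
      show (1 : Matrix (Fin n) (Fin n) F) = tvM u ((0 : ℕ) • φ)
      rw [zero_smul, tvM, Matrix.vecMulVec_zero, add_zero]
    | succ k ih =>
      obtain ⟨h', e⟩ := ih
      refine ⟨by rw [succ_nsmul, add_dotProduct, h', h, add_zero], ?_⟩
      rw [pow_succ, e, tv_mul_centre]
      exact tv_ext (by rw [succ_nsmul])
  obtain ⟨h', e⟩ := hpow p
  have h1 : (QuotientGroup.mk (tv u φ h) : PSLn) ^ p ^ 1 = 1 := by
    rw [pow_one, ← QuotientGroup.mk_pow, e]
    have e2 : tv u (p • φ) h' = 1 := by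
      apply Subtype.ext
      show tvM u (p • φ) = 1
      have e3 : p • φ = 0 := by
        funext i
        rw [Pi.smul_apply, nsmul_eq_mul, CharP.cast_eq_zero, zero_mul, Pi.zero_apply]
      rw [e3, tvM, Matrix.vecMulVec_zero, add_zero]
    rw [e2]
    rfl
  obtain ⟨k, -, hk⟩ := (Nat.dvd_prime_pow (Fact.out : p.Prime)).1 (orderOf_dvd_of_pow_eq_one h1)
  exact ⟨k, hk⟩

/-- Elements fixing `e_i` normalize `Ec e_i`. -/
theorem norm_Ec (i : Fin n) (g : Matrix.SpecialLinearGroup (Fin n) F)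
    (hg : g.1 *ᵥ bv i = bv i) :
    (QuotientGroup.mk g : PSLn) ∈
      Subgroup.normalizer ((Ec (bv i : Fin n → F) : Subgroup PSLn) : Set PSLn) := by
  apply Subgroup.mem_normalizer_fintype
  rintro _ ⟨φ, h, rfl⟩
  rw [← QuotientGroup.mk_inv, ← QuotientGroup.mk_mul, ← QuotientGroup.mk_mul, conj_tv]
  refine ⟨φ ᵥ* (g⁻¹).1, ?_, ?_⟩
  · have h1 := conj_dot' g (bv i) φ h
    rwa [hg] at h1
  · congr 1
    exact tv_ext (by rw [hg])

/-- Elements whose inverse fixes the row `e_l` normalize `Ea e_l`. -/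
theorem norm_Ea (l : Fin n) (g : Matrix.SpecialLinearGroup (Fin n) F)
    (hg : (bv l : Fin n → F) ᵥ* (g⁻¹).1 = bv l) :
    (QuotientGroup.mk g : PSLn) ∈
      Subgroup.normalizer ((Ea (bv l : Fin n → F) : Subgroup PSLn) : Set PSLn) := by
  apply Subgroup.mem_normalizer_fintype
  rintro _ ⟨u, h, rfl⟩
  rw [← QuotientGroup.mk_inv, ← QuotientGroup.mk_mul, ← QuotientGroup.mk_mul, conj_tv]
  refine ⟨g.1 *ᵥ u, ?_, ?_⟩
  · have h1 := conj_dot' g u (bv l) h
    rwa [hg] at h1
  · congr 1
    exact tv_ext (by rw [hg])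

theorem tv_norm_Ec (i : Fin n) (u φ : Fin n → F) (h : φ ⬝ᵥ u = 0) (hφ : φ i = 0) :
    (QuotientGroup.mk (tv u φ h) : PSLn) ∈
      Subgroup.normalizer ((Ec (bv i : Fin n → F) : Subgroup PSLn) : Set PSLn) := by
  apply norm_Ec
  show tvM u φ *ᵥ bv i = bv i
  rw [tvM_mulVec, dot_bv, hφ, zero_smul, add_zero]

theorem tv_norm_Ea (l : Fin n) (u φ : Fin n → F) (h : φ ⬝ᵥ u = 0) (hu : u l = 0) :
    (QuotientGroup.mk (tv u φ h) : PSLn) ∈
      Subgroup.normalizer ((Ea (bv l : Fin n → F) : Subgroup PSLn) : Set PSLn) := by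
  apply norm_Ea
  rw [tv_inv_centre]
  show (bv l : Fin n → F) ᵥ* tvM u (-φ) = bv l
  rw [vecMul_tvM, bv_dot, hu, zero_smul, add_zero]

theorem iota_iota (x : PSLn) : iota (iota x) = x := by
  have h := congrArg (fun f : MulAut PSLn => f x) (iota_mul_self (n := n) (F := F))
  exact h

/-- `Ec e_i` is self-centralizing in `PSL_n(F)`. -/
theorem cent_Ec (hn : 2 ≤ n) (i : Fin n) :
    Subgroup.centralizer ((Ec (bv i : Fin n → F) : Subgroup PSLn) : Set PSLn) ≤ Ec (bv i) := by
  intro x hx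
  obtain ⟨g, rfl⟩ := QuotientGroup.mk_surjective x
  rw [Subgroup.mem_centralizer_iff] at hx
  have hk : ∀ k : Fin n, k ≠ i → ∀ a b : Fin n,
      g.1 a i * (g⁻¹).1 k b = (bv i : Fin n → F) a * (bv k : Fin n → F) b := by
    intro k hki a b
    have hdot : (bv k : Fin n → F) ⬝ᵥ bv i = 0 := by rw [bv_dot, bv_ne hki]
    have h1 := hx (QuotientGroup.mk (tv (bv i) (bv k) hdot)) ⟨bv k, hdot, rfl⟩
    have h2 : (QuotientGroup.mk (g * tv (bv i) (bv k) hdot * g⁻¹) : PSLn) =
        QuotientGroup.mk (tv (bv i) (bv k) hdot) := by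
      rw [QuotientGroup.mk_mul, QuotientGroup.mk_mul, ← h1, QuotientGroup.mk_inv,
        mul_inv_cancel_right]
    rw [conj_tv] at h2
    have h3 := mk_tv_inj (by omega) h2
    have h4 := congrFun (congrFun h3 a) b
    rw [Matrix.vecMulVec_apply, Matrix.vecMulVec_apply, mulVec_bv, bv_vecMul] at h4
    exact h4
  obtain ⟨k₀, hk₀⟩ : ∃ k : Fin n, k ≠ i := by
    by_cases hi : i.val = 0
    · exact ⟨⟨1, by omega⟩, fun h => by
        have h0 := congrArg Fin.val h
        simp only at h0
        omega⟩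
    · exact ⟨⟨0, by omega⟩, fun h => by
        have h0 := congrArg Fin.val h
        simp only at h0
        omega⟩
  have h1 := hk k₀ hk₀ i k₀
  rw [bv_same, bv_same, mul_one] at h1
  have hlam : g.1 i i ≠ 0 := left_ne_zero_of_mul_eq_one h1
  have hrow : ∀ k, k ≠ i → ∀ b, (g⁻¹).1 k b = (g.1 i i)⁻¹ * (bv k : Fin n → F) b := by
    intro k hki b
    have h2 := hk k hki i b
    rw [bv_same, one_mul] at h2
    rw [← h2, ← mul_assoc, inv_mul_cancel₀ hlam, one_mul]
  have hcol : ∀ a, a ≠ i → g.1 a i = 0 := by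
    intro a hai
    have h2 := hk k₀ hk₀ a k₀
    rw [bv_ne hai, zero_mul] at h2
    rcases mul_eq_zero.1 h2 with h | h
    · exact h
    · exfalso
      rw [h, mul_zero] at h1
      exact zero_ne_one h1
  have hii : (g⁻¹).1 i i = (g.1 i i)⁻¹ := by
    have h2 : ((g⁻¹ * g : Matrix.SpecialLinearGroup (Fin n) F).1) i i = 1 := by
      rw [inv_mul_cancel, Matrix.SpecialLinearGroup.coe_one, Matrix.one_apply_eq]
    rw [Matrix.SpecialLinearGroup.coe_mul, Matrix.mul_apply, Finset.sum_eq_single i] at h2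
    · exact eq_inv_of_mul_eq_one_left h2
    · intro b _ hb
      rw [hcol b hb, mul_zero]
    · intro h
      exact absurd (Finset.mem_univ i) h
  obtain ⟨ψ, hψ⟩ : ∃ ψ : Fin n → F,
    ψ = fun b => if b = i then 0 else g.1 i i * (g⁻¹).1 i b := ⟨_, rfl⟩
  have hψi : ψ i = 0 := by
    rw [hψ]
    exact if_pos rfl
  have hψb : ∀ b, b ≠ i → ψ b = g.1 i i * (g⁻¹).1 i b := by
    intro b hb
    rw [hψ]
    exact if_neg hb
  have hdotψ : ψ ⬝ᵥ bv i = 0 := by rw [dot_bv, hψi]
  have hmk : (QuotientGroup.mk (tv (bv i) ψ hdotψ) : PSLn) = QuotientGroup.mk g⁻¹ := by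
    rw [mk_eq_mk_iff]
    refine ⟨(g.1 i i)⁻¹, ?_⟩
    ext a b
    rw [Matrix.smul_apply, smul_eq_mul]
    show (g⁻¹).1 a b = (g.1 i i)⁻¹ * tvM (bv i) ψ a b
    rw [tvM_apply]
    by_cases hai : a = i
    · rw [hai, bv_same, one_mul]
      by_cases hbi : b = i
      · rw [hbi, if_pos rfl, hψi, add_zero, mul_one, hii]
      · rw [if_neg (Ne.symm hbi), zero_add, hψb b hbi, ← mul_assoc, inv_mul_cancel₀ hlam, one_mul]
    · rw [bv_ne hai, zero_mul, add_zero, hrow a hai b]
      by_cases hab : a = b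
      · rw [hab, bv_same, if_pos rfl]
      · rw [bv_ne (Ne.symm hab), if_neg hab]
  have e : (QuotientGroup.mk g : PSLn) = (QuotientGroup.mk (tv (bv i) ψ hdotψ))⁻¹ := by
    rw [hmk, QuotientGroup.mk_inv, inv_inv]
  rw [e]
  exact inv_mem ⟨ψ, hdotψ, rfl⟩

/-- `Ea e_l` is self-centralizing in `PSL_n(F)`. -/
theorem cent_Ea (hn : 2 ≤ n) (l : Fin n) :
    Subgroup.centralizer ((Ea (bv l : Fin n → F) : Subgroup PSLn) : Set PSLn) ≤ Ea (bv l) := by
  intro x hx
  rw [Subgroup.mem_centralizer_iff] at hx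
  have h1 : iota x ∈
      Subgroup.centralizer ((Ec (bv l : Fin n → F) : Subgroup PSLn) : Set PSLn) := by
    rw [Subgroup.mem_centralizer_iff]
    intro y hy
    have h2 := hx (iota y) (iota_mem_Ec hy)
    have h3 := congrArg iota h2
    rw [map_mul, map_mul, iota_iota] at h3
    exact h3
  have h4 := iota_mem_Ec (cent_Ec hn l h1)
  rwa [iota_iota] at h4

theorem Uni_fix_first (z : Fin n) (hz : ∀ i, z ≤ i) (s : Matrix.SpecialLinearGroup (Fin n) F)
    (hs : IsUT s.1) : s.1 *ᵥ bv z = bv z := by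
  rw [mulVec_bv]
  funext i
  by_cases hi : i = z
  · rw [hi, bv_same]
    exact hs.2 z
  · rw [bv_ne hi]
    exact hs.1 i z (lt_of_le_of_ne (hz i) (Ne.symm hi))

theorem Uni_fix_last (l : Fin n) (hl : ∀ i, i ≤ l) (s : Matrix.SpecialLinearGroup (Fin n) F)
    (hs : IsUT s.1) : (bv l : Fin n → F) ᵥ* s.1 = bv l := by
  rw [bv_vecMul]
  funext j
  by_cases hj : j = l
  · rw [hj, bv_same]
    exact hs.2 l
  · rw [bv_ne hj]
    exact hs.1 l j (lt_of_le_of_ne (hl j) hj)

theorem transvection_mem_Kc (p : ℕ) [Fact p.Prime] [CharP F p] (z : Fin n) {a b : Fin n}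
    (hab : a ≠ b) (hbz : b ≠ z) (c : F) :
    (QuotientGroup.mk (Matrix.SpecialLinearGroup.transvection hab c) : PSLn) ∈
      Subgroup.closure {y : PSLn | y ∈ Subgroup.normalizer
        ((Ec (bv z : Fin n → F) : Subgroup PSLn) : Set PSLn) ∧ ∃ k : ℕ, orderOf y = p ^ k} := by
  obtain ⟨h, e⟩ := transvection_eq_tv hab c
  rw [e]
  exact Subgroup.subset_closure ⟨tv_norm_Ec z _ _ h (bv_ne hbz.symm), orderOf_tv p _ _ h⟩

theorem transvection_mem_Ka (p : ℕ) [Fact p.Prime] [CharP F p] (l : Fin n) {a b : Fin n}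
    (hab : a ≠ b) (hal : a ≠ l) (c : F) :
    (QuotientGroup.mk (Matrix.SpecialLinearGroup.transvection hab c) : PSLn) ∈
      Subgroup.closure {y : PSLn | y ∈ Subgroup.normalizer
        ((Ea (bv l : Fin n → F) : Subgroup PSLn) : Set PSLn) ∧ ∃ k : ℕ, orderOf y = p ^ k} := by
  obtain ⟨h, e⟩ := transvection_eq_tv hab c
  rw [e]
  refine Subgroup.subset_closure ⟨tv_norm_Ea l _ _ h ?_, orderOf_tv p _ _ h⟩
  rw [Pi.smul_apply, bv_ne hal.symm, smul_zero]

theorem diag2n_mem_K (K : Subgroup PSLn) {a b : Fin n} (hab : a ≠ b)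
    (h1 : ∀ c : F, (QuotientGroup.mk (Matrix.SpecialLinearGroup.transvection hab c) : PSLn) ∈ K)
    (h2 : ∀ c : F,
      (QuotientGroup.mk (Matrix.SpecialLinearGroup.transvection hab.symm c) : PSLn) ∈ K)
    (t : F) (ht : t ≠ 0) :
    (QuotientGroup.mk (Matrix.SpecialLinearGroup.diag2n hab t ht) : PSLn) ∈ K := by
  rw [diag2n_eq hab t ht, QuotientGroup.mk_mul, QuotientGroup.mk_mul, QuotientGroup.mk_mul]
  exact mul_mem (mul_mem (mul_mem (h1 _) (h2 _)) (h1 _)) (h2 _)

/-- **The defining-characteristic fusion system of `PSL_n(K)`, `n ≥ 3`, is simple.** -/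
theorem psl_fusion_simple {K : Type*} [Field K] [Fintype K] (p : ℕ) [Fact p.Prime] [CharP K p]
    (n : ℕ) (hn : 3 ≤ n) (S : Sylow p (Matrix.ProjectiveSpecialLinearGroup (Fin n) K)) :
    (Cfsg.groupFusionSystem
      (S : Subgroup (Matrix.ProjectiveSpecialLinearGroup (Fin n) K))).IsSimple p := by
  obtain ⟨f, -, hF⟩ := FiniteField.card K p
  have hf : 1 ≤ (f : ℕ) := f.pos
  have hP1 : IsPGroup p ↥(UniBar n K) :=
    (IsPGroup.of_card (by rw [card_Uni, hF, ← pow_mul])).map _
  have hP2 : ¬ p ∣ (UniBar n K).index := fun hd =>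
    not_dvd_index hF hf (by omega)
      (dvd_trans hd (Subgroup.index_map_dvd _ (QuotientGroup.mk'_surjective _)))
  obtain ⟨P, hP⟩ : ∃ P : Sylow p (Matrix.ProjectiveSpecialLinearGroup (Fin n) K),
      (P : Subgroup (Matrix.ProjectiveSpecialLinearGroup (Fin n) K)) = UniBar n K :=
    ⟨hP1.toSylow hP2, IsPGroup.toSylow_coe hP1 hP2⟩
  obtain ⟨z, hzdef⟩ : ∃ z : Fin n, z = ⟨0, by omega⟩ := ⟨_, rfl⟩
  obtain ⟨l, hldef⟩ : ∃ l : Fin n, l = ⟨n - 1, by omega⟩ := ⟨_, rfl⟩
  have hzv : z.val = 0 := by rw [hzdef]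
  have hlv : l.val = n - 1 := by rw [hldef]
  have hz : ∀ i : Fin n, z ≤ i := fun i => by
    rw [Fin.le_def, hzv]
    exact Nat.zero_le _
  have hl : ∀ i : Fin n, i ≤ l := fun i => by
    rw [Fin.le_def, hlv]
    have := i.isLt
    omega
  have hzl : z ≠ l := by
    intro h
    have h0 := congrArg Fin.val h
    rw [hzv, hlv] at h0
    omega
  have hUc : UniBar n K ≤ Subgroup.normalizer
      ((Ec (bv z : Fin n → K) : Subgroup (Matrix.ProjectiveSpecialLinearGroup (Fin n) K)) :
        Set (Matrix.ProjectiveSpecialLinearGroup (Fin n) K)) := by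
    rintro _ ⟨s, hs, rfl⟩
    exact norm_Ec z s (Uni_fix_first z hz s hs)
  have hUa : UniBar n K ≤ Subgroup.normalizer
      ((Ea (bv l : Fin n → K) : Subgroup (Matrix.ProjectiveSpecialLinearGroup (Fin n) K)) :
        Set (Matrix.ProjectiveSpecialLinearGroup (Fin n) K)) := by
    rintro _ ⟨s, hs, rfl⟩
    exact norm_Ea l s (Uni_fix_last l hl s⁻¹ ((Uni n K).inv_mem hs))
  have hord : ∀ x ∈ UniBar n K, ∃ k : ℕ, orderOf x = p ^ k := by
    intro x hx
    obtain ⟨k, hk⟩ := (IsPGroup.iff_orderOf.1 hP1) ⟨x, hx⟩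
    exact ⟨k, by rw [← hk, ← Subgroup.orderOf_coe]⟩
  refine Cfsg.Agent.H88.simple_of_centric_family_model p P ?_ ?_
    {Ec (bv z : Fin n → K), Ea (bv l : Fin n → K)} ?_ ?_ S
  · rw [hP]
    intro h
    have hdot : (bv l : Fin n → K) ⬝ᵥ bv z = 0 := by rw [bv_dot, bv_ne hzl.symm]
    have hmem : (QuotientGroup.mk (tv (bv z) (bv l) hdot) :
        Matrix.ProjectiveSpecialLinearGroup (Fin n) K) ∈ UniBar n K := by
      have h0 := isUT_tvM (lt_of_le_of_ne (hz l) hzl) (1 : K)
      rw [one_smul] at h0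
      exact ⟨_, h0, rfl⟩
    rw [h, Subgroup.mem_bot] at hmem
    exact mk_tv_ne_one (by omega) (bv_ne_zero z) (bv_ne_zero l) hmem
  · intro T hT hT1 hcl
    rw [hP] at hT hcl ⊢
    exact hcl_Uni hF hn T hT hT1 hcl
  · rintro E (rfl | hE)
    · refine ⟨?_, ?_, cent_Ec (by omega) z⟩
      · rw [hP]
        rintro _ ⟨φ, h, rfl⟩
        have hφz : φ z = 0 := by rwa [dot_bv] at h
        refine ⟨_, isUT_row z φ (fun j hj => ?_), rfl⟩
        rw [le_antisymm hj (hz j)]
        exact hφz
      · rw [hP]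
        exact hUc
    · rw [Set.mem_singleton_iff] at hE
      subst hE
      refine ⟨?_, ?_, cent_Ea (by omega) l⟩
      · rw [hP]
        rintro _ ⟨u, h, rfl⟩
        have hul : u l = 0 := by rwa [bv_dot] at h
        refine ⟨_, isUT_col l u (fun j hj => ?_), rfl⟩
        rw [le_antisymm (hl j) hj]
        exact hul
      · rw [hP]
        exact hUa
  · intro g hg
    obtain ⟨g, rfl⟩ := QuotientGroup.mk_surjective g
    rw [hP] at hg
    have hup := norm_upper g hg
    rw [hP]
    apply upper_mem _ ?_ ?_ g hup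
    · intro x hx
      apply Subgroup.subset_closure
      exact ⟨Subgroup.le_normalizer hx, Ec (bv z), Set.mem_insert _ _,
        Subgroup.subset_closure ⟨hUc hx, hord x hx⟩⟩
    · intro i₀ i₁ hne hadj t ht
      apply Subgroup.subset_closure
      refine ⟨diag_mem_normalizer _ _ (Matrix.SpecialLinearGroup.diag2n_coe hne t ht) ?_, ?_⟩
      · intro k
        split_ifs
        · exact ht
        · exact inv_ne_zero ht
        · exact one_ne_zero
      · by_cases h0 : i₀ = z
        · have h0l : i₀ ≠ l := by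
            rw [h0]
            exact hzl
          have h1l : i₁ ≠ l := by
            intro h
            have h2 := congrArg Fin.val h
            rw [← hadj, h0, hzv, hlv] at h2
            omega
          exact ⟨Ea (bv l), Set.mem_insert_of_mem _ rfl,
            diag2n_mem_K _ hne (fun c => transvection_mem_Ka p l hne h0l c)
              (fun c => transvection_mem_Ka p l hne.symm h1l c) t ht⟩
        · have h1z : i₁ ≠ z := by
            intro h
            have h2 := congrArg Fin.val h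
            rw [← hadj, hzv] at h2
            omega
          exact ⟨Ec (bv z), Set.mem_insert _ _,
            diag2n_mem_K _ hne (fun c => transvection_mem_Kc p z hne h1z c)
              (fun c => transvection_mem_Kc p z hne.symm h0 c) t ht⟩

end Cfsg.Agent.H88.Ln
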