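import Cfsg.Agent.H88.SubnConstr
import Cfsg.Agent.H87.PCore

set_option autoImplicit false
set_option maxHeartbeats 1000000

/-!
A constrained group fusion system stays constrained modulo the centre of the group.
-/

namespace Cfsg.Agent.H88

open Cfsg Cfsg.FusionSystem Cfsg.Agent.H86
open scoped commutatorElement

variable {M : Type*} [Group M]

/-- a central `p`-element lies in every Sylow `p`-subgroup -/
lemma central_pElement_mem_sylow [Finite M] {p : ℕ} [Fact p.Prime] (T : Sylow p M) {z : M}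
    (hz : z ∈ Subgroup.center M) {n : ℕ} (hzn : z ^ (p ^ n) = 1) : z ∈ (T : Subgroup M) := by
  have hN : (Subgroup.zpowers z).Normal := by
    refine ⟨fun x hx g => ?_⟩
    have hxc : x ∈ Subgroup.center M := (Subgroup.zpowers_le.2 hz) hx
    have : g * x * g⁻¹ = x := by
      rw [Subgroup.mem_center_iff.1 hxc g]
      group
    rw [this]; exact hx
  have hp : IsPGroup p (Subgroup.zpowers z) := by
    rintro ⟨x, hx⟩
    obtain ⟨k, rfl⟩ := Subgroup.mem_zpowers_iff.1 hx
    refine ⟨n, Subtype.ext ?_⟩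
    show (z ^ k) ^ (p ^ n) = 1
    rw [← zpow_natCast, ← zpow_mul, mul_comm, zpow_mul, zpow_natCast, hzn, one_zpow]
  exact H87.pCore_le_sylow T (H87.le_pCore hN hp (Subgroup.mem_zpowers z))

lemma mem_sylow_of_mk_mem [Finite M] {p : ℕ} [Fact p.Prime] (T : Sylow p M) {y : M}
    (hy : ∃ n : ℕ, y ^ (p ^ n) = 1)
    (h : QuotientGroup.mk' (Subgroup.center M) y ∈
      (T : Subgroup M).map (QuotientGroup.mk' (Subgroup.center M))) :
    y ∈ (T : Subgroup M) := by
  obtain ⟨n, hn⟩ := hy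
  obtain ⟨t, ht, hty⟩ := h
  have hz : t⁻¹ * y ∈ Subgroup.center M := QuotientGroup.eq.1 hty
  obtain ⟨a, ha⟩ := T.isPGroup' ⟨t, ht⟩
  have hta : t ^ (p ^ a) = 1 := congrArg Subtype.val ha
  have hcomm : Commute t⁻¹ y := by
    have h1 := Subgroup.mem_center_iff.1 hz t⁻¹
    -- t⁻¹ * (t⁻¹ * y) = t⁻¹ * y * t⁻¹
    show t⁻¹ * y = y * t⁻¹
    have h2 : t⁻¹ * (t⁻¹ * y) = t⁻¹ * (y * t⁻¹) := by rw [h1]; group
    exact mul_left_cancel h2
  have hzp : (t⁻¹ * y) ^ (p ^ (a + n)) = 1 := by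
    rw [hcomm.mul_pow, pow_add, pow_mul, inv_pow, hta, mul_comm (p ^ a), pow_mul y, hn]
    simp
  have hzT := central_pElement_mem_sylow T hz hzp
  have : y = t * (t⁻¹ * y) := by group
  rw [this]
  exact mul_mem ht hzT

theorem constrained_quot_center [Finite M] {p : ℕ} [Fact p.Prime] (T : Sylow p M)
    (hF : (groupFusionSystem (T : Subgroup M)).IsConstrained p) :
    (groupFusionSystem
      ((T : Subgroup M).map (QuotientGroup.mk' (Subgroup.center M)))).IsConstrained p := by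
  obtain ⟨hFsat, Q₀, hQ₀n, hQ₀c⟩ := hF
  have hTp : IsPGroup p (T : Subgroup M) := T.isPGroup'
  have hQn : (groupFusionSystem (T : Subgroup M)).IsNormal (groupFusionSystem (T : Subgroup M)).core :=
    isNormal_core _
  have hQ₀Q : Q₀ ≤ (groupFusionSystem (T : Subgroup M)).core := le_sSup hQ₀n
  have hcore : ∀ C : Subgroup M, (groupFusionSystem (T : Subgroup M)).IsNormal C →
      C ≤ (groupFusionSystem (T : Subgroup M)).core := fun C hC => le_sSup hC
  generalize (groupFusionSystem (T : Subgroup M)).core = Q at hQn hQ₀Q hcore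
  have hQT : Q ≤ T := hQn.1
  have hQc : (groupFusionSystem (T : Subgroup M)).IsCentric Q := H87.isCentric_of_le hQ₀c hQ₀Q hQT
  have hQC : centralizerIn (T : Subgroup M) Q ≤ Q := H87.isCentric_self_le hQc
  have hQsc := IsNormal.stronglyClosed hQn
  have hπsurj : Function.Surjective (QuotientGroup.mk' (Subgroup.center M)) :=
    QuotientGroup.mk'_surjective _
  have hker : ∀ x : M, QuotientGroup.mk' (Subgroup.center M) x = 1 ↔ x ∈ Subgroup.center M :=
    fun x => QuotientGroup.eq_one_iff x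
  -- p-elements
  have hpel : ∀ x ∈ (T : Subgroup M), ∀ g : M, ∃ n : ℕ, (g * x * g⁻¹) ^ (p ^ n) = 1 := by
    intro x hx g
    obtain ⟨n, hn⟩ := hTp ⟨x, hx⟩
    refine ⟨n, ?_⟩
    have : x ^ (p ^ n) = 1 := congrArg Subtype.val hn
    rw [conj_pow, this]; group
  -- normalizing representatives
  have hrep : ∀ (P : Subgroup M) (g : M), P ≤ T → (∀ x ∈ P, g * x * g⁻¹ ∈ (T : Subgroup M)) →
      ∃ g' : M, (∀ x ∈ P, g' * x * g'⁻¹ = g * x * g⁻¹) ∧ (∀ x ∈ Q, g' * x * g'⁻¹ ∈ Q) ∧
        (∀ x ∈ Q, g'⁻¹ * x * g' ∈ Q) ∧ ∀ x ∈ P ⊔ Q, g' * x * g'⁻¹ ∈ (T : Subgroup M) := by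
    intro P g hP hg
    have hmor : Mor (groupFusionSystem (T : Subgroup M)) P (fun x => g * x * g⁻¹) :=
      mor_groupFusionSystem_iff.2 ⟨hP, hg, g, fun x _ => rfl⟩
    obtain ⟨f', hf', hf'P, hf'Q⟩ := (isNormal_iff.1 hQn).2 P _ hmor
    obtain ⟨hPQ, hf'T, g', hg'⟩ := mor_groupFusionSystem_iff.1 hf'
    refine ⟨g', fun x hx => ?_, fun x hx => ?_, fun x hx => ?_, fun x hx => ?_⟩
    · rw [← hg' x (Subgroup.mem_sup_left hx)]; exact hf'P x hx
    · rw [← hg' x (Subgroup.mem_sup_right hx), ← hf'Q]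
      exact (hf'.restrict le_sup_right).mem_imgS.2 ⟨x, hx, rfl⟩
    · have hx' : x ∈ imgS Q f' := by rw [hf'Q]; exact hx
      obtain ⟨q, hq, rfl⟩ := (hf'.restrict le_sup_right).mem_imgS.1 hx'
      rw [hg' q (Subgroup.mem_sup_right hq)]
      have : g'⁻¹ * (g' * q * g'⁻¹) * g' = q := by group
      rw [this]; exact hq
    · rw [← hg' x hx]; exact hf'T x hx
  -- `Q̄` is normal in the quotient system
  have hQbn : (groupFusionSystem ((T : Subgroup M).map (QuotientGroup.mk' (Subgroup.center M)))).IsNormal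
      (Q.map (QuotientGroup.mk' (Subgroup.center M))) := by
    rw [isNormal_iff]
    refine ⟨Subgroup.map_mono hQT, fun Pb fb hfb => ?_⟩
    obtain ⟨hPb, hfbT, gb, hgb⟩ := mor_groupFusionSystem_iff.1 hfb
    obtain ⟨g, rfl⟩ := hπsurj gb
    have hPmap : ∀ y ∈ Pb, ∃ x, (x ∈ (T : Subgroup M) ∧
        QuotientGroup.mk' (Subgroup.center M) x ∈ Pb) ∧ QuotientGroup.mk' (Subgroup.center M) x = y := by
      intro y hy
      obtain ⟨t, ht, rfl⟩ := hPb hy
      exact ⟨t, ⟨ht, hy⟩, rfl⟩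
    have hgP : ∀ x ∈ (T : Subgroup M) ⊓ Pb.comap (QuotientGroup.mk' (Subgroup.center M)),
        g * x * g⁻¹ ∈ (T : Subgroup M) := by
      intro x hx
      apply mem_sylow_of_mk_mem T (hpel x hx.1 g)
      have h1 := hfbT _ hx.2
      rw [hgb _ hx.2] at h1
      rw [map_mul, map_mul, map_inv]
      exact h1
    obtain ⟨g', hg'P, hg'Q, hg'Q', hg'T⟩ := hrep _ g inf_le_left hgP
    refine ⟨fun y => QuotientGroup.mk' (Subgroup.center M) g' * y *
        (QuotientGroup.mk' (Subgroup.center M) g')⁻¹,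
      mor_groupFusionSystem_iff.2 ⟨sup_le hPb (Subgroup.map_mono hQT), ?_, _, fun _ _ => rfl⟩, ?_, ?_⟩
    · intro y hy
      have hle : Pb ⊔ Q.map (QuotientGroup.mk' (Subgroup.center M)) ≤
          (((T : Subgroup M) ⊓ Pb.comap (QuotientGroup.mk' (Subgroup.center M))) ⊔ Q).map
            (QuotientGroup.mk' (Subgroup.center M)) := by
        rw [Subgroup.map_sup]
        refine sup_le_sup_right ?_ _
        intro y hy
        obtain ⟨x, hx, rfl⟩ := hPmap y hy
        exact Subgroup.mem_map_of_mem _ hx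
      obtain ⟨x, hx, rfl⟩ := hle hy
      have := Subgroup.mem_map_of_mem (QuotientGroup.mk' (Subgroup.center M)) (hg'T x hx)
      rw [map_mul, map_mul, map_inv] at this
      exact this
    · intro y hy
      obtain ⟨x, hx, rfl⟩ := hPmap y hy
      show QuotientGroup.mk' (Subgroup.center M) g' * QuotientGroup.mk' (Subgroup.center M) x *
        (QuotientGroup.mk' (Subgroup.center M) g')⁻¹ = fb (QuotientGroup.mk' (Subgroup.center M) x)
      rw [hgb _ hx.2, ← map_inv, ← map_mul, ← map_mul, hg'P x hx, map_mul, map_mul, map_inv]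
    · rw [Mor.imgS_conj]
      ext y
      rw [H87.mem_map_conj]
      constructor
      · rintro ⟨q, hq, hqy⟩
        have : y = QuotientGroup.mk' (Subgroup.center M) (g' * q * g'⁻¹) := by
          rw [map_mul, map_mul, map_inv, hqy]; group
        rw [this]
        exact Subgroup.mem_map_of_mem _ (hg'Q q hq)
      · rintro ⟨q, hq, rfl⟩
        have := Subgroup.mem_map_of_mem (QuotientGroup.mk' (Subgroup.center M)) (hg'Q' q hq)
        rw [map_mul, map_mul, map_inv] at this
        exact this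
  -- the subgroup `D` of `T` centralizing `Q` modulo the centre
  obtain ⟨D, hDdef⟩ : ∃ D : Subgroup M, D = (T : Subgroup M) ⊓
      (Subgroup.centralizer ((Q.map (QuotientGroup.mk' (Subgroup.center M)) :
        Subgroup (M ⧸ Subgroup.center M)) : Set (M ⧸ Subgroup.center M))).comap
        (QuotientGroup.mk' (Subgroup.center M)) := ⟨_, rfl⟩
  have hDmem : ∀ c, c ∈ D ↔ c ∈ (T : Subgroup M) ∧ ∀ q ∈ Q, c * q * c⁻¹ * q⁻¹ ∈ Subgroup.center M := by
    intro c
    rw [hDdef, Subgroup.mem_inf, Subgroup.mem_comap, Subgroup.mem_centralizer_iff]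
    refine and_congr_right fun _ => ?_
    constructor
    · intro h q hq
      rw [← hker, map_mul, map_mul, map_mul, map_inv, map_inv,
        ← h _ (Subgroup.mem_map_of_mem _ hq)]
      group
    · rintro h _ ⟨q, hq, rfl⟩
      have h1 := (hker _).2 (h q hq)
      rw [map_mul, map_mul, map_mul, map_inv, map_inv] at h1
      have h2 := congrArg (fun z => z * QuotientGroup.mk' (Subgroup.center M) q *
        QuotientGroup.mk' (Subgroup.center M) c) h1
      simp only [inv_mul_cancel_right, one_mul] at h2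
      exact h2.symm
  have hDT : D ≤ T := fun c hc => ((hDmem c).1 hc).1
  have hconjQ : ∀ c ∈ (T : Subgroup M), ∀ q ∈ Q, c * q * c⁻¹ ∈ Q :=
    fun c hc q hq => stronglyClosed_conj_mem hQsc hc hq
  have hconjQ' : ∀ c ∈ (T : Subgroup M), ∀ q ∈ Q, c⁻¹ * q * c ∈ Q := by
    intro c hc q hq
    have := stronglyClosed_conj_mem hQsc (inv_mem hc) hq
    rwa [inv_inv] at this
  have hDsc : (groupFusionSystem (T : Subgroup M)).StronglyClosed D := by
    rw [stronglyClosed_iff]
    refine ⟨hDT, fun R f hR hf x hx => ?_⟩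
    obtain ⟨hRT, hfT, g, hg⟩ := mor_groupFusionSystem_iff.1 hf
    obtain ⟨g', hg'P, hg'Q, hg'Q', -⟩ := hrep R g hRT (fun x hx => by rw [← hg x hx]; exact hfT x hx)
    rw [hDmem]
    refine ⟨hfT x hx, fun q hq => ?_⟩
    rw [hg x hx, ← hg'P x hx]
    have h1 := ((hDmem x).1 (hR hx)).2 _ (hg'Q' q hq)
    have h2 : g' * x * g'⁻¹ * q * (g' * x * g'⁻¹)⁻¹ * q⁻¹ =
        g' * (x * (g'⁻¹ * q * g') * x⁻¹ * (g'⁻¹ * q * g')⁻¹) * g'⁻¹ := by group
    rw [h2]
    have h3 := Subgroup.mem_center_iff.1 h1 g'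
    rw [h3, mul_inv_cancel_right]
    exact h1
  have hAsc : (groupFusionSystem (T : Subgroup M)).StronglyClosed (Q ⊓ Subgroup.center M) := by
    rw [stronglyClosed_iff]
    refine ⟨inf_le_left.trans hQT, fun R f hR hf x hx => ?_⟩
    obtain ⟨hRT, hfT, g, hg⟩ := mor_groupFusionSystem_iff.1 hf
    have h1 := Subgroup.mem_center_iff.1 (hR hx).2 g
    have h2 : f x = x := by rw [hg x hx, h1]; group
    rw [h2]; exact hR hx
  have hBsc : (groupFusionSystem (T : Subgroup M)).StronglyClosed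
      (Q ⊓ Subgroup.centralizer (Q : Set M)) := by
    rw [stronglyClosed_iff]
    refine ⟨inf_le_left.trans hQT, fun R f hR hf x hx => ?_⟩
    obtain ⟨hRT, hfT, g, hg⟩ := mor_groupFusionSystem_iff.1 hf
    obtain ⟨g', hg'P, hg'Q, hg'Q', -⟩ := hrep R g hRT (fun x hx => by rw [← hg x hx]; exact hfT x hx)
    rw [hg x hx, ← hg'P x hx]
    refine ⟨hg'Q x (hR hx).1, Subgroup.mem_centralizer_iff.2 ?_⟩
    intro q hq
    have h1 := Subgroup.mem_centralizer_iff.1 (hR hx).2 _ (hg'Q' q hq)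
    calc q * (g' * x * g'⁻¹) = g' * ((g'⁻¹ * q * g') * x) * g'⁻¹ := by group
      _ = g' * (x * (g'⁻¹ * q * g')) * g'⁻¹ := by rw [h1]
      _ = g' * x * g'⁻¹ * q := by group
  -- the three-subgroup computation
  have hcc : ∀ c ∈ D, ∀ c' ∈ D, ∀ q ∈ Q,
      c * (c' * q * c'⁻¹) * c⁻¹ = c' * (c * q * c⁻¹) * c'⁻¹ := by
    intro c hc c' hc' q hq
    have e1 := ((hDmem c).1 hc).2 q hq
    have e2 := ((hDmem c').1 hc').2 q hq
    have a1 := Subgroup.mem_center_iff.1 e2 c
    have a2 := Subgroup.mem_center_iff.1 e1 c'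
    have a3 := Subgroup.mem_center_iff.1 e1 (c' * q * c'⁻¹ * q⁻¹)
    calc c * (c' * q * c'⁻¹) * c⁻¹
        = (c * (c' * q * c'⁻¹ * q⁻¹)) * c⁻¹ * (c * q * c⁻¹ * q⁻¹) * q := by group
      _ = ((c' * q * c'⁻¹ * q⁻¹) * c) * c⁻¹ * (c * q * c⁻¹ * q⁻¹) * q := by rw [a1]
      _ = (c' * q * c'⁻¹ * q⁻¹) * (c * q * c⁻¹ * q⁻¹) * q := by group
      _ = (c * q * c⁻¹ * q⁻¹) * (c' * q * c'⁻¹ * q⁻¹) * q := by rw [a3]
      _ = ((c * q * c⁻¹ * q⁻¹) * c') * q * c'⁻¹ := by group
      _ = (c' * (c * q * c⁻¹ * q⁻¹)) * q * c'⁻¹ := by rw [a2]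
      _ = c' * (c * q * c⁻¹) * c'⁻¹ := by group
  have hDn : (groupFusionSystem (T : Subgroup M)).IsNormal D := by
    refine isNormal_of_chain hTp hFsat hDsc
      (fun j => if j = 0 then ⊥ else if j = 1 then Q ⊓ Subgroup.center M
        else if j = 2 then Q ⊓ Subgroup.centralizer (Q : Set M) else D) 3 (by simp) ?_ (by simp) ?_
    · have hAB : Q ⊓ Subgroup.center M ≤ Q ⊓ Subgroup.centralizer (Q : Set M) :=
        inf_le_inf_left _ (Subgroup.center_le_centralizer _)
      have hBD : Q ⊓ Subgroup.centralizer (Q : Set M) ≤ D := by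
        intro x hx
        rw [hDmem]
        refine ⟨hQT hx.1, fun q hq => ?_⟩
        have h1 := Subgroup.mem_centralizer_iff.1 hx.2 q hq
        have h2 : x * q * x⁻¹ * q⁻¹ = 1 := by rw [← h1]; group
        rw [h2]; exact one_mem _
      refine monotone_nat_of_le_succ fun n => ?_
      rcases n with _ | _ | _ | n
      · simp
      · simpa using hAB
      · simpa using hBD
      · simp
    · intro j hj
      have hj' : j = 0 ∨ j = 1 ∨ j = 2 := by omega
      rcases hj' with rfl | rfl | rfl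
      · refine ⟨by simpa using hAsc, ?_⟩
        simp only [zero_add, one_ne_zero, if_false, if_true]
        rw [Subgroup.commutator_le]
        intro c hc z hz
        rw [Subgroup.mem_bot, commutatorElement_eq_one_iff_mul_comm]
        exact Subgroup.mem_center_iff.1 hz.2 c
      · refine ⟨by simpa using hBsc, ?_⟩
        simp only [Nat.reduceAdd, OfNat.ofNat_ne_zero, OfNat.ofNat_ne_one, one_ne_zero, if_false,
          if_true]
        rw [Subgroup.commutator_le]
        intro c hc z hz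
        rw [commutatorElement_def]
        exact ⟨Q.mul_mem (hconjQ c (hDT hc) z hz.1) (Q.inv_mem hz.1), ((hDmem c).1 hc).2 z hz.1⟩
      · refine ⟨by simpa using hDsc, ?_⟩
        simp only [Nat.reduceAdd, OfNat.ofNat_ne_zero, OfNat.ofNat_ne_one, if_false, if_true]
        rw [Subgroup.commutator_le]
        intro c hc c' hc'
        have hmemT : ⁅c, c'⁆ ∈ (T : Subgroup M) := by
          rw [commutatorElement_def]
          exact mul_mem (mul_mem (mul_mem (hDT hc) (hDT hc')) (inv_mem (hDT hc))) (inv_mem (hDT hc'))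
        have hcent : ⁅c, c'⁆ ∈ centralizerIn (T : Subgroup M) Q := by
          rw [mem_centralizerIn_iff]
          refine ⟨hmemT, fun q hq => ?_⟩
          have hq1 : c⁻¹ * (c'⁻¹ * q * c') * c ∈ Q :=
            hconjQ' c (hDT hc) _ (hconjQ' c' (hDT hc') q hq)
          have h := hcc c hc c' hc' _ hq1
          have h' : c * (c' * (c⁻¹ * (c'⁻¹ * q * c') * c) * c'⁻¹) * c⁻¹ = q := by
            rw [h]; group
          rw [commutatorElement_def]
          calc q * (c * c' * c⁻¹ * c'⁻¹)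
              = (c * (c' * (c⁻¹ * (c'⁻¹ * q * c') * c) * c'⁻¹) * c⁻¹) * (c * c' * c⁻¹ * c'⁻¹) := by
                rw [h']
            _ = c * c' * c⁻¹ * c'⁻¹ * q := by group
        exact ⟨hQC hcent, hcent.2⟩
  have hDQ : D ≤ Q := hcore D hDn
  -- conclusion
  have hsat : (groupFusionSystem
      ((T : Subgroup M).map (QuotientGroup.mk' (Subgroup.center M)))).IsSaturated p := by
    have := groupFusionSystem_saturated p (T.mapSurjective hπsurj)
    rwa [Sylow.coe_mapSurjective] at this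
  refine ⟨hsat, _, hQbn, Subgroup.map_mono hQT, fun Q' hQ' => ?_⟩
  obtain ⟨f, hf, rfl⟩ := Cfsg.Agent.H86.isConj_iff.1 hQ'
  have hQbsc := IsNormal.stronglyClosed hQbn
  have himg : imgS (Q.map (QuotientGroup.mk' (Subgroup.center M))) f =
      Q.map (QuotientGroup.mk' (Subgroup.center M)) :=
    imgS_eq_of_maps hf (fun y hy => (stronglyClosed_iff.1 hQbsc).2 _ f le_rfl hf y hy)
  rw [himg]
  intro y hy
  obtain ⟨hyT, hyC⟩ := hy
  obtain ⟨t, ht, rfl⟩ := hyT
  have htD : t ∈ D := by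
    rw [hDdef]
    exact ⟨ht, hyC⟩
  exact Subgroup.mem_map_of_mem _ (hDQ htD)

end Cfsg.Agent.H88
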