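import Mathlib
import Cfsg.Agent.H88.SpnC

/-!
helper88: `PSp_{2m}(F)` in defining characteristic: the Siegel radical is self-centralizing, and
the image `Ū` of the unitriangular group has no proper nontrivial subgroup closed under fusion.
-/

set_option autoImplicit false
set_option linter.unusedSectionVars false

namespace Cfsg.Agent.H88.Spn

open Matrix

open Cfsg.Agent.H50.AutPSL

variable {m : ℕ} {F : Type*} [Field F] [Fintype F]

theorem pow_card_U {p f : ℕ} (hF : Fintype.card F = p ^ f)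
    {g : Matrix.symplecticGroup (Fin m) F} (hg : g ∈ EL (rk m)) : g ^ (p ^ (f * m ^ 2)) = 1 := by
  have h1 : (⟨g, hg⟩ : (EL (rk m) : Subgroup (Matrix.symplecticGroup (Fin m) F))) ^
      Nat.card (EL (rk m) : Subgroup (Matrix.symplecticGroup (Fin m) F)) = 1 := pow_card_eq_one'
  rw [card_U, hF, ← pow_mul] at h1
  exact congrArg Subtype.val h1

/-- Elements of `Sp` commuting modulo the centre with an element of `U` commute with it. -/
theorem comm_of_mk_comm [Nonempty (Fin m)] {p f : ℕ} [Fact p.Prime] [CharP F p]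
    (hF : Fintype.card F = p ^ f) {x q : Matrix.symplecticGroup (Fin m) F} (hq : q ∈ EL (rk m))
    (h : (QuotientGroup.mk x : Cfsg.PSp m F) * QuotientGroup.mk q =
      QuotientGroup.mk q * QuotientGroup.mk x) : x * q = q * x := by
  have h1 : (QuotientGroup.mk (x * q * x⁻¹) : Cfsg.PSp m F) = QuotientGroup.mk q := by
    rw [QuotientGroup.mk_mul, QuotientGroup.mk_mul, h, QuotientGroup.mk_inv, mul_inv_cancel_right]
  have h2 : (x * q * x⁻¹) ^ (p ^ (f * m ^ 2)) = 1 := by
    rw [conj_pow, pow_card_U hF hq, mul_one, mul_inv_cancel]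
  have h3 := eq_of_mk_eq_of_pow p (f * m ^ 2) h2 (pow_card_U hF hq) h1
  calc x * q = x * q * x⁻¹ * x := by rw [inv_mul_cancel_right]
    _ = q * x := by rw [h3]

/-- The Siegel radical is self-centralizing modulo `±1`. -/
theorem cent_Q [Nonempty (Fin m)] (x : Matrix.symplecticGroup (Fin m) F)
    (hx : ∀ (S : Matrix (Fin m) (Fin m) F) (hS : S.IsSymm), x * Qm S hS = Qm S hS * x) :
    ∃ (S : Matrix (Fin m) (Fin m) F) (hS : S.IsSymm),
      x = Qm S hS ∨ x = Cfsg.Agent.H6.spNegOne (Fin m) F * Qm S hS := by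
  obtain ⟨a, b, c, d, hx1⟩ : ∃ a b c d : Matrix (Fin m) (Fin m) F,
      x.1 = Matrix.fromBlocks a b c d := ⟨_, _, _, _, (Matrix.fromBlocks_toBlocks x.1).symm⟩
  have hcomm : ∀ S : Matrix (Fin m) (Fin m) F, S.IsSymm → S * c = 0 ∧ a * S = S * d := by
    intro S hS
    have h1 : x.1 * (Qm S hS).1 = (Qm S hS).1 * x.1 := congrArg Subtype.val (hx S hS)
    rw [hx1, Qm_val, Matrix.fromBlocks_multiply, Matrix.fromBlocks_multiply,
      Matrix.fromBlocks_inj] at h1
    obtain ⟨h2, h3, -, -⟩ := h1
    simp only [Matrix.mul_one, Matrix.mul_zero, add_zero, Matrix.one_mul] at h2 h3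
    constructor
    · have := h2
      rw [left_eq_add] at this
      exact this
    · have h4 : a * S + b = S * d + b := by rw [h3, add_comm]
      exact add_right_cancel h4
  have hsym1 : ∀ k : Fin m, (Matrix.single k k (1 : F)).IsSymm := fun k =>
    Matrix.transpose_single k k 1
  have hsym2 : ∀ k l : Fin m, (Matrix.single k l (1 : F) + Matrix.single l k 1).IsSymm := by
    intro k l
    show (Matrix.single k l (1 : F) + Matrix.single l k 1)ᵀ = _
    rw [Matrix.transpose_add, Matrix.transpose_single, Matrix.transpose_single, add_comm]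
  have hc0 : c = 0 := by
    ext k l
    have h1 := congrFun (congrFun (hcomm _ (hsym1 k)).1 k) l
    rw [single_mul_apply', if_pos rfl, one_mul] at h1
    exact h1
  have ha0 : ∀ k l : Fin m, k ≠ l → a k l = 0 := by
    intro k l hkl
    have h1 := congrFun (congrFun (hcomm _ (hsym1 l)).2 k) l
    rw [single_mul_apply', if_neg hkl, mul_single_apply', if_pos rfl, mul_one] at h1
    exact h1
  have hd0 : ∀ k l : Fin m, k ≠ l → d k l = 0 := by
    intro k l hkl
    have h1 := congrFun (congrFun (hcomm _ (hsym1 k)).2 k) l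
    rw [single_mul_apply', if_pos rfl, mul_single_apply', if_neg (Ne.symm hkl), one_mul] at h1
    exact h1.symm
  have had : ∀ k : Fin m, a k k = d k k := by
    intro k
    have h1 := congrFun (congrFun (hcomm _ (hsym1 k)).2 k) k
    rw [single_mul_apply', if_pos rfl, mul_single_apply', if_pos rfl, one_mul, mul_one] at h1
    exact h1
  have had2 : ∀ k l : Fin m, k ≠ l → a k k = d l l := by
    intro k l hkl
    have h1 := congrFun (congrFun (hcomm _ (hsym2 k l)).2 k) l
    rw [Matrix.mul_add, Matrix.add_mul, Matrix.add_apply, Matrix.add_apply, single_mul_apply',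
      single_mul_apply', mul_single_apply', mul_single_apply', if_pos rfl, if_pos rfl,
      if_neg (Ne.symm hkl), if_neg hkl, mul_one, one_mul, add_zero, add_zero] at h1
    exact h1
  obtain ⟨k₀⟩ := (inferInstance : Nonempty (Fin m))
  obtain ⟨lam, hlam⟩ : ∃ lam : F, lam = a k₀ k₀ := ⟨_, rfl⟩
  have hak : ∀ k : Fin m, a k k = lam := by
    intro k
    by_cases hk : k = k₀
    · rw [hk, hlam]
    · rw [had2 k k₀ hk, ← had k₀, hlam]
  have ha : a = lam • (1 : Matrix (Fin m) (Fin m) F) := by
    ext k l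
    rw [Matrix.smul_apply, smul_eq_mul]
    by_cases hkl : k = l
    · rw [hkl, Matrix.one_apply_eq, mul_one, hak]
    · rw [Matrix.one_apply_ne hkl, mul_zero, ha0 k l hkl]
  have hd : d = lam • (1 : Matrix (Fin m) (Fin m) F) := by
    ext k l
    rw [Matrix.smul_apply, smul_eq_mul]
    by_cases hkl : k = l
    · rw [hkl, Matrix.one_apply_eq, mul_one, ← had, hak]
    · rw [Matrix.one_apply_ne hkl, mul_zero, hd0 k l hkl]
  have h2 := x.2
  rw [hx1, SymplecticGroup.fromBlocks_mem_iff, hc0, ha, hd] at h2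
  obtain ⟨-, h3, h4⟩ := h2
  have hlam2 : lam * lam = 1 := by
    have h5 := congrFun (congrFun h4 k₀) k₀
    simp only [Matrix.transpose_smul, Matrix.transpose_one, Matrix.smul_mul, Matrix.mul_smul,
      Matrix.one_mul, Matrix.transpose_zero, Matrix.zero_mul, sub_zero, Matrix.smul_apply,
      Matrix.one_apply_eq, smul_eq_mul, mul_one] at h5
    exact h5
  have hlam0 : lam ≠ 0 := by
    intro h0
    rw [h0, mul_zero] at hlam2
    exact zero_ne_one hlam2
  have hb : b.IsSymm := by
    simp only [Matrix.transpose_smul, Matrix.transpose_one, Matrix.smul_mul, Matrix.mul_smul,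
      Matrix.one_mul, Matrix.mul_one] at h3
    show bᵀ = b
    ext k l
    have h5 := congrFun (congrFun h3 k) l
    rw [Matrix.smul_apply, Matrix.smul_apply, smul_eq_mul, smul_eq_mul] at h5
    exact mul_left_cancel₀ hlam0 h5
  rcases mul_self_eq_one_iff.1 hlam2 with h1 | h1
  · refine ⟨b, hb, Or.inl ?_⟩
    apply Subtype.ext
    rw [hx1, Qm_val, ha, hd, hc0, h1, one_smul]
  · refine ⟨-b, hb.neg, Or.inr ?_⟩
    apply Subtype.ext
    rw [Cfsg.Agent.H45.sp_negOne_mul_coe, hx1, Qm_val, ha, hd, hc0, h1, Matrix.fromBlocks_neg,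
      neg_neg, neg_zero, neg_one_smul]

/-- The unitriangular group is generated by the transvections `1 + c E_ik`, `i < k`. -/
theorem Uni_le_of_transvections (H : Subgroup (Matrix.SpecialLinearGroup (Fin m) F))
    (h : ∀ (i k : Fin m) (hik : i < k) (c : F),
      Matrix.SpecialLinearGroup.transvection (ne_of_lt hik) c ∈ H) : Uni m F ≤ H := by
  have step : ∀ (r c : ℕ), (∀ s : Matrix.SpecialLinearGroup (Fin m) F, IsUT s.1 →
      (∀ i j : Fin m, i < j → (r < i.val ∨ (i.val = r ∧ c ≤ j.val)) → s.1 i j = 0) → s ∈ H) →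
      ∀ s : Matrix.SpecialLinearGroup (Fin m) F, IsUT s.1 →
      (∀ i j : Fin m, i < j → (r < i.val ∨ (i.val = r ∧ c + 1 ≤ j.val)) → s.1 i j = 0) →
      s ∈ H := by
    intro r c ih s hs h0
    by_cases hrc : r < c ∧ c < m
    · obtain ⟨i₀, hi₀⟩ : ∃ i₀ : Fin m, i₀.val = r := ⟨⟨r, by omega⟩, rfl⟩
      obtain ⟨j₀, hj₀⟩ : ∃ j₀ : Fin m, j₀.val = c := ⟨⟨c, hrc.2⟩, rfl⟩
      have hlt : i₀ < j₀ := by
        rw [Fin.lt_def, hi₀, hj₀]
        exact hrc.1
      have hentry : ∀ k l : Fin m,
          (s * Matrix.SpecialLinearGroup.transvection (ne_of_lt hlt) (-(s.1 i₀ j₀))).1 k l =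
            s.1 k l + (if l = j₀ then s.1 k i₀ * (-(s.1 i₀ j₀)) else 0) := by
        intro k l
        rw [Matrix.SpecialLinearGroup.coe_mul, Matrix.SpecialLinearGroup.transvection_coe,
          Matrix.mul_add, Matrix.mul_one, Matrix.add_apply, mul_single_apply']
      have hUT : IsUT (s * Matrix.SpecialLinearGroup.transvection (ne_of_lt hlt)
          (-(s.1 i₀ j₀))).1 := by
        constructor
        · intro k l hlk
          rw [hentry, hs.1 k l hlk]
          by_cases hl : l = j₀
          · rw [if_pos hl, hs.1 k i₀ (lt_trans hlt (by rw [← hl]; exact hlk)), zero_mul, add_zero]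
          · rw [if_neg hl, add_zero]
        · intro k
          rw [hentry, hs.2]
          by_cases hl : k = j₀
          · rw [if_pos hl, hs.1 k i₀ (by rw [hl]; exact hlt), zero_mul, add_zero]
          · rw [if_neg hl, add_zero]
      have h5 := ih _ hUT (by
        intro i j hij hcond
        rw [hentry]
        by_cases hj : j = j₀
        · rw [if_pos hj]
          by_cases hi : i = i₀
          · rw [hi, hj, hs.2, one_mul, add_neg_cancel]
          · have hri : r < i.val := by
              rcases hcond with h1 | h1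
              · exact h1
              · exact absurd (Fin.ext (h1.1.trans hi₀.symm)) hi
            rw [h0 i j hij (Or.inl hri), hs.1 i i₀ (by rw [Fin.lt_def, hi₀]; exact hri), zero_mul,
              add_zero]
        · rw [if_neg hj, add_zero]
          apply h0 i j hij
          rcases hcond with h1 | h1
          · exact Or.inl h1
          · right
            refine ⟨h1.1, ?_⟩
            have : j.val ≠ c := fun e => hj (Fin.ext (e.trans hj₀.symm))
            omega)
      have e : s = (s * Matrix.SpecialLinearGroup.transvection (ne_of_lt hlt) (-(s.1 i₀ j₀))) *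
          (Matrix.SpecialLinearGroup.transvection (ne_of_lt hlt) (-(s.1 i₀ j₀)))⁻¹ := by
        rw [mul_inv_cancel_right]
      rw [e]
      exact mul_mem h5 (inv_mem (h i₀ j₀ hlt _))
    · apply ih s hs
      intro i j hij hcond
      apply h0 i j hij
      rcases hcond with h1 | h1
      · exact Or.inl h1
      · right
        refine ⟨h1.1, ?_⟩
        have := j.isLt
        have : i.val < j.val := hij
        omega
  have key : ∀ (r c : ℕ) (s : Matrix.SpecialLinearGroup (Fin m) F), IsUT s.1 →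
      (∀ i j : Fin m, i < j → (r < i.val ∨ (i.val = r ∧ c ≤ j.val)) → s.1 i j = 0) → s ∈ H := by
    intro r
    induction r with
    | zero =>
      intro c
      induction c with
      | zero =>
        intro s hs h0
        have h1 : s = 1 := by
          apply Subtype.ext
          ext i j
          rw [Matrix.SpecialLinearGroup.coe_one]
          rcases lt_trichotomy i j with hij | hij | hij
          · rw [h0 i j hij (by omega), Matrix.one_apply_ne (ne_of_lt hij)]
          · rw [hij, hs.2, Matrix.one_apply_eq]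
          · rw [hs.1 i j hij, Matrix.one_apply_ne (ne_of_gt hij)]
        rw [h1]
        exact one_mem _
      | succ c ih => exact step 0 c ih
    | succ r ihr =>
      intro c
      induction c with
      | zero =>
        intro s hs h0
        apply ihr m s hs
        intro i j hij hcond
        apply h0 i j hij
        have := j.isLt
        omega
      | succ c ih => exact step (r + 1) c ih
  intro s hs
  exact key m 0 s hs (fun i j _ hcond => absurd i.isLt (by omega))

theorem isSymm_single (k : Fin m) (s : F) : (Matrix.single k k s).IsSymm :=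
  Matrix.transpose_single k k s

theorem isSymm_pair (i k : Fin m) (a : F) : (Matrix.single i k a + Matrix.single k i a).IsSymm := by
  show (Matrix.single i k a + Matrix.single k i a)ᵀ = _
  rw [Matrix.transpose_add, Matrix.transpose_single, Matrix.transpose_single, add_comm]

theorem Qm_comm (S S' : Matrix (Fin m) (Fin m) F) (hS : S.IsSymm) (hS' : S'.IsSymm) :
    Qm S hS * Qm S' hS' = Qm S' hS' * Qm S hS := by
  rw [Qm_mul, Qm_mul, Qm_congr (add_comm S S')]

/-- Conjugating a Siegel element by an opposite one. -/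
theorem Ym_mul_Qm (D S : Matrix (Fin m) (Fin m) F) (hD : D.IsSymm) (hS : S.IsSymm)
    (g : GL (Fin m) F) (hg : (g : Matrix (Fin m) (Fin m) F) = 1 - S * D)
    (hg' : ((g⁻¹ : GL (Fin m) F) : Matrix (Fin m) (Fin m) F) = 1 + S * D)
    (hDSD : D * S * D = 0) (hS' : (S + S * D * S).IsSymm) :
    Ym D hD * Qm S hS = Lg g * Qm (S + S * D * S) hS' * Ym D hD := by
  apply Subtype.ext
  show (Ym D hD).1 * (Qm S hS).1 = (Lg g).1 * (Qm (S + S * D * S) hS').1 * (Ym D hD).1
  have e1 : (1 - S * D) * (S + S * D * S) = S := by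
    have : S * D * (S * D * S) = S * (D * S * D) * S := by simp only [Matrix.mul_assoc]
    rw [Matrix.sub_mul, Matrix.one_mul, Matrix.mul_add, this, hDSD, Matrix.mul_zero,
      Matrix.zero_mul, add_zero, add_sub_cancel_right]
  have e3 : (1 + S * D)ᵀ = 1 + D * S := by
    rw [Matrix.transpose_add, Matrix.transpose_one, Matrix.transpose_mul, hD.eq, hS.eq]
  have e4 : (1 + D * S) * D = D := by
    rw [Matrix.add_mul, Matrix.one_mul, hDSD, add_zero]
  rw [Ym_val, Qm_val, Lg_val, Qm_val, hg, hg', e3, Matrix.fromBlocks_multiply,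
    Matrix.fromBlocks_multiply, Matrix.fromBlocks_multiply]
  simp only [Matrix.mul_one, Matrix.one_mul, Matrix.mul_zero, Matrix.zero_mul, add_zero, zero_add,
    e1, e4]
  congr 1
  · rw [sub_add_cancel]
  · rw [add_comm]

theorem tvG_inv_val {i k : Fin m} (hik : i ≠ k) (c : F) :
    (((tvG hik c)⁻¹ : GL (Fin m) F) : Matrix (Fin m) (Fin m) F) = 1 + Matrix.single i k (-c) := by
  rw [tvG, ← map_inv, Matrix.SpecialLinearGroup.transvection_inv]
  rfl

theorem Lg_tvG_mem_U {i k : Fin m} (hik : i < k) (c : F) :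
    Lg (tvG (ne_of_lt hik) c) ∈ EL (rk m) := by
  apply Lg_mem_U
  show IsUT (Matrix.SpecialLinearGroup.transvection (ne_of_lt hik) c).1
  rw [Matrix.SpecialLinearGroup.transvection_coe]
  constructor
  · intro a b hba
    rw [Matrix.add_apply, Matrix.one_apply_ne (ne_of_gt hba), single_apply_c, zero_add]
    rw [if_neg]
    rintro ⟨rfl, rfl⟩
    exact absurd hba (not_lt.2 hik.le)
  · intro a
    rw [Matrix.add_apply, Matrix.one_apply_eq, single_apply_c, if_neg, add_zero]
    rintro ⟨rfl, h⟩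
    exact absurd h (ne_of_lt hik)

theorem Yop_single (i k : Fin m) (hik : i ≠ k) (c : F) :
    Yop (Matrix.single k k (1 : F)) i k c =
      Matrix.single i k c + Matrix.single k i c + Matrix.single i i (c * c) := by
  ext a b
  simp only [Yop, Matrix.of_apply, Matrix.add_apply, single_apply_c]
  by_cases ha : a = i <;> by_cases hb : b = i <;> by_cases ha' : a = k <;> by_cases hb' : b = k <;>
    simp_all

/-- The conjugate of `Qm (a(E_ik + E_ki))` by the opposite root element at `k`. -/
theorem Ym_pair {i k : Fin m} (hik : i ≠ k) (a : F) :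
    ∃ (S' : Matrix (Fin m) (Fin m) F) (hS' : S'.IsSymm),
      Ym (Matrix.single k k 1) (isSymm_single k 1) *
        Qm (Matrix.single i k a + Matrix.single k i a) (isSymm_pair i k a) =
      Lg (tvG hik (-a)) * Qm S' hS' * Ym (Matrix.single k k 1) (isSymm_single k 1) := by
  have eSD : (Matrix.single i k a + Matrix.single k i a) * Matrix.single k k (1 : F) =
      Matrix.single i k a := by
    rw [Matrix.add_mul, Matrix.single_mul_single_same,
      Matrix.single_mul_single_of_ne _ _ _ _ hik _, add_zero, mul_one]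
  have eDSD : Matrix.single k k (1 : F) * (Matrix.single i k a + Matrix.single k i a) *
      Matrix.single k k (1 : F) = 0 := by
    rw [Matrix.mul_assoc, eSD, Matrix.single_mul_single_of_ne _ _ _ _ (Ne.symm hik) _]
  have hS' : (Matrix.single i k a + Matrix.single k i a +
      (Matrix.single i k a + Matrix.single k i a) * Matrix.single k k (1 : F) *
        (Matrix.single i k a + Matrix.single k i a)).IsSymm := by
    rw [eSD, Matrix.mul_add, Matrix.single_mul_single_same,
      Matrix.single_mul_single_of_ne _ _ _ _ (Ne.symm hik) _, zero_add]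
    exact (isSymm_pair i k a).add (isSymm_single i _)
  refine ⟨_, hS', ?_⟩
  apply Ym_mul_Qm _ _ _ _ _ _ _ eDSD
  · rw [tvG_val, eSD, sub_eq_add_neg, Matrix.single_neg]
  · rw [tvG_inv_val, eSD, neg_neg]

/-- **No proper nontrivial subgroup of `Ū` is closed under fusion in `PSp_{2m}(F)`.** -/
theorem hcl_Ub [Nonempty (Fin m)] {p f : ℕ} [Fact p.Prime] [CharP F p]
    (hF : Fintype.card F = p ^ f) (hm : 2 ≤ m) (hex : m = 2 → 3 ≤ Fintype.card F)
    (T : Subgroup (Cfsg.PSp m F)) (hT : T ≤ Ub m F) (hT1 : T ≠ ⊥)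
    (hcl : ∀ t ∈ T, ∀ c : Cfsg.PSp m F, c * t * c⁻¹ ∈ Ub m F → c * t * c⁻¹ ∈ T) :
    T = Ub m F := by
  have mkU : ∀ g : Matrix.symplecticGroup (Fin m) F, g ∈ EL (rk m) →
      (QuotientGroup.mk g : Cfsg.PSp m F) ∈ Ub m F := fun g hg => ⟨g, hg, rfl⟩
  have hcl' : ∀ x y : Matrix.symplecticGroup (Fin m) F, (QuotientGroup.mk x : Cfsg.PSp m F) ∈ T →
      y * x * y⁻¹ ∈ EL (rk m) → (QuotientGroup.mk (y * x * y⁻¹) : Cfsg.PSp m F) ∈ T := by
    intro x y hx hy
    have h1 := hcl _ hx (QuotientGroup.mk y) (by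
      rw [← QuotientGroup.mk_inv, ← QuotientGroup.mk_mul, ← QuotientGroup.mk_mul]
      exact mkU _ hy)
    rwa [← QuotientGroup.mk_inv, ← QuotientGroup.mk_mul, ← QuotientGroup.mk_mul] at h1
  obtain ⟨𝒯, h𝒯⟩ : ∃ 𝒯 : AddSubgroup (Matrix (Fin m) (Fin m) F), ∀ S : Matrix (Fin m) (Fin m) F,
      S ∈ 𝒯 ↔ ∃ hS : S.IsSymm, (QuotientGroup.mk (Qm S hS) : Cfsg.PSp m F) ∈ T := by
    refine ⟨{ carrier := {S | ∃ hS : S.IsSymm, (QuotientGroup.mk (Qm S hS) : Cfsg.PSp m F) ∈ T}
              zero_mem' := ⟨Matrix.isSymm_zero, by rw [Qm_zero]; exact one_mem _⟩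
              add_mem' := ?_
              neg_mem' := ?_ }, fun S => Iff.rfl⟩
    · rintro S S' ⟨hS, h1⟩ ⟨hS', h2⟩
      refine ⟨hS.add hS', ?_⟩
      rw [← Qm_mul S S' hS hS', QuotientGroup.mk_mul]
      exact mul_mem h1 h2
    · rintro S ⟨hS, h1⟩
      refine ⟨hS.neg, ?_⟩
      rw [← Qm_inv S hS, QuotientGroup.mk_inv]
      exact inv_mem h1
  have hmemT : ∀ (S : Matrix (Fin m) (Fin m) F) (hS : S.IsSymm), S ∈ 𝒯 →
      (QuotientGroup.mk (Qm S hS) : Cfsg.PSp m F) ∈ T := by
    intro S hS h
    obtain ⟨_, h1⟩ := (h𝒯 S).1 h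
    exact h1
  have hsym : ∀ S ∈ 𝒯, S.IsSymm := fun S hS => ((h𝒯 S).1 hS).1
  have hc : ∀ S ∈ 𝒯, ∀ g : GL (Fin m) F,
      (g : Matrix (Fin m) (Fin m) F) * S * (g : Matrix (Fin m) (Fin m) F)ᵀ ∈ 𝒯 := by
    intro S hS g
    obtain ⟨hS1, h1⟩ := (h𝒯 S).1 hS
    have h2 := hcl' (Qm S hS1) (Lg g) h1 (by rw [Lg_conj_Qm]; exact Qm_mem_U _ _)
    rw [Lg_conj_Qm] at h2
    exact (h𝒯 _).2 ⟨_, h2⟩
  -- Step 1: `T` meets the Siegel radical
  have hstep1 : ∃ S ∈ 𝒯, S ≠ 0 := by
    obtain ⟨⟨t, htT⟩, ht1⟩ := (Subgroup.ne_bot_iff_exists_ne_one).1 hT1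
    have ht1' : t ≠ 1 := fun e => ht1 (Subtype.ext e)
    obtain ⟨g, hg, rfl⟩ := hT htT
    have hg' : (QuotientGroup.mk g : Cfsg.PSp m F) ∈ T := htT
    by_cases hcen : ∀ (S : Matrix (Fin m) (Fin m) F) (hS : S.IsSymm),
        (QuotientGroup.mk g : Cfsg.PSp m F) * QuotientGroup.mk (Qm S hS) =
          QuotientGroup.mk (Qm S hS) * QuotientGroup.mk g
    · obtain ⟨S, hS, h1⟩ := cent_Q g (fun S hS => comm_of_mk_comm hF (Qm_mem_U S hS) (hcen S hS))
      have h2 : (QuotientGroup.mk g : Cfsg.PSp m F) = QuotientGroup.mk (Qm S hS) := by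
        rcases h1 with h1 | h1
        · rw [h1]
        · exact (mk_eq_mk_iff _ _).2 (Or.inr h1)
      refine ⟨S, (h𝒯 S).2 ⟨hS, by rw [← h2]; exact hg'⟩, ?_⟩
      intro h0
      apply ht1'
      show (QuotientGroup.mk g : Cfsg.PSp m F) = 1
      rw [h2, Qm_congr h0, Qm_zero]
      rfl
    · push Not at hcen
      obtain ⟨S, hS, hne⟩ := hcen
      have hgP : g ∈ PL (lamQ m) := by
        refine EL_le_PL ?_ hg
        intro i j hij
        rcases i with i | i <;> rcases j with j | j
        · exact absurd hij (lt_irrefl _)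
        · exact absurd hij (by simp [lamQ])
        · rw [rk_inl, rk_inr]
          have := i.isLt
          have := j.isLt
          omega
        · exact absurd hij (lt_irrefl _)
      obtain ⟨S', hS', e⟩ := exists_Qm_of_mem_ELQ (conj_mem_EL hgP (Qm_mem_ELQ S hS))
      have h1 : (QuotientGroup.mk (Qm (S' + -S) (hS'.add hS.neg)) : Cfsg.PSp m F) ∈ T := by
        have h2 : (QuotientGroup.mk (Qm (S' + -S) (hS'.add hS.neg)) : Cfsg.PSp m F) =
            QuotientGroup.mk g * (QuotientGroup.mk (Qm S hS) * (QuotientGroup.mk g)⁻¹ *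
              (QuotientGroup.mk (Qm S hS))⁻¹) := by
          rw [← Qm_mul S' (-S) hS' hS.neg, ← Qm_inv S hS, ← e]
          simp only [QuotientGroup.mk_mul, QuotientGroup.mk_inv]
          group
        rw [h2]
        refine mul_mem hg' (hcl _ (inv_mem hg') _ ?_)
        exact mul_mem (mul_mem (mkU _ (Qm_mem_U S hS)) (inv_mem (mkU _ hg)))
          (inv_mem (mkU _ (Qm_mem_U S hS)))
      refine ⟨_, (h𝒯 _).2 ⟨_, h1⟩, ?_⟩
      intro h0
      apply hne
      have h3 : S' = S := by
        have := add_neg_eq_zero.1 h0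
        exact this
      have h4 : g * Qm S hS = Qm S hS * g := by
        calc g * Qm S hS = g * Qm S hS * g⁻¹ * g := by rw [inv_mul_cancel_right]
          _ = Qm S hS * g := by rw [e, Qm_congr h3]
      rw [← QuotientGroup.mk_mul, ← QuotientGroup.mk_mul, h4]
  obtain ⟨S₀, hS₀, hS₀0⟩ := hstep1
  -- Step 2: an element `a (E_ik + E_ki)`
  have hstep2 : ∃ (i k : Fin m) (a : F), i ≠ k ∧ a ≠ 0 ∧
      Matrix.single i k a + Matrix.single k i a ∈ 𝒯 := by
    by_cases hm3 : 3 ≤ m
    · exact alt_of_three hm3 𝒯 hsym hc hS₀ hS₀0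
    · have hm2 : m = 2 := by omega
      exact alt_of_two hm2 (hex hm2) 𝒯 hsym hc hS₀ hS₀0
  -- Step 2d: a rank one element
  have hstep3 : ∀ (i k : Fin m) (a : F), i < k → a ≠ 0 →
      Matrix.single i k a + Matrix.single k i a ∈ 𝒯 → Matrix.single i i (a * a) ∈ 𝒯 := by
    intro i k a hik ha hmem
    have hq := hmemT _ (isSymm_pair i k a) hmem
    obtain ⟨S', hS', e⟩ := Ym_pair (ne_of_lt hik) a
    have e2 : Ym (Matrix.single k k 1) (isSymm_single k 1) *
        Qm (Matrix.single i k a + Matrix.single k i a) (isSymm_pair i k a) *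
        (Ym (Matrix.single k k 1) (isSymm_single k 1))⁻¹ =
        Lg (tvG (ne_of_lt hik) (-a)) * Qm S' hS' := by
      rw [e, mul_inv_cancel_right]
    have ht' := hcl' _ (Ym (Matrix.single k k 1) (isSymm_single k 1)) hq (by
      rw [e2]
      exact mul_mem (Lg_tvG_mem_U hik _) (Qm_mem_U _ _))
    rw [e2] at ht'
    have hx := mkU _ (Qm_mem_U (Matrix.single k k (1 : F)) (isSymm_single k 1))
    have hcomm : (QuotientGroup.mk (Lg (tvG (ne_of_lt hik) (-a)) * Qm S' hS') : Cfsg.PSp m F) *
        (QuotientGroup.mk (Qm (Matrix.single k k (1 : F)) (isSymm_single k 1)) *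
          (QuotientGroup.mk (Lg (tvG (ne_of_lt hik) (-a)) * Qm S' hS'))⁻¹ *
          (QuotientGroup.mk (Qm (Matrix.single k k (1 : F)) (isSymm_single k 1)))⁻¹) ∈ T :=
      mul_mem ht' (hcl _ (inv_mem ht') _ (mul_mem (mul_mem hx (inv_mem (hT ht'))) (inv_mem hx)))
    have e3 : Lg (tvG (ne_of_lt hik) (-a)) * Qm S' hS' *
        (Qm (Matrix.single k k (1 : F)) (isSymm_single k 1) *
          (Lg (tvG (ne_of_lt hik) (-a)) * Qm S' hS')⁻¹ *
          (Qm (Matrix.single k k (1 : F)) (isSymm_single k 1))⁻¹) =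
        Qm (Yop (Matrix.single k k (1 : F)) i k (-a))
          (by
            have h0 := isSymm_congr ((tvG (ne_of_lt hik) (-a) : GL (Fin m) F) :
              Matrix (Fin m) (Fin m) F) (isSymm_single k (1 : F))
            rw [tvG_val, cong_tv] at h0
            have h1 := h0.sub (isSymm_single k (1 : F))
            rwa [add_sub_cancel_left] at h1) := by
      have e4 : Lg (tvG (ne_of_lt hik) (-a)) * Qm S' hS' *
          (Qm (Matrix.single k k (1 : F)) (isSymm_single k 1) *
            (Lg (tvG (ne_of_lt hik) (-a)) * Qm S' hS')⁻¹ *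
            (Qm (Matrix.single k k (1 : F)) (isSymm_single k 1))⁻¹) =
          Lg (tvG (ne_of_lt hik) (-a)) *
            (Qm S' hS' * Qm (Matrix.single k k (1 : F)) (isSymm_single k 1) * (Qm S' hS')⁻¹) *
            (Lg (tvG (ne_of_lt hik) (-a)))⁻¹ *
            (Qm (Matrix.single k k (1 : F)) (isSymm_single k 1))⁻¹ := by group
      rw [e4, Qm_comm S', mul_inv_cancel_right, Lg_conj_Qm, Qm_inv, Qm_mul]
      apply Qm_congr
      rw [tvG_val, cong_tv, add_neg_cancel_comm]
    rw [← QuotientGroup.mk_inv, ← QuotientGroup.mk_inv, ← QuotientGroup.mk_mul,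
      ← QuotientGroup.mk_mul, ← QuotientGroup.mk_mul, e3] at hcomm
    have h5 : Yop (Matrix.single k k (1 : F)) i k (-a) ∈ 𝒯 := (h𝒯 _).2 ⟨_, hcomm⟩
    rw [Yop_single i k (ne_of_lt hik)] at h5
    have h6 := 𝒯.add_mem h5 hmem
    have e5 : Matrix.single i k (-a) + Matrix.single k i (-a) + Matrix.single i i (-a * -a) +
        (Matrix.single i k a + Matrix.single k i a) = Matrix.single i i (a * a) := by
      rw [← Matrix.single_neg, ← Matrix.single_neg, neg_mul_neg]
      abel
    rwa [e5] at h6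
  have hstep4 : ∃ (i : Fin m) (c : F), c ≠ 0 ∧ Matrix.single i i c ∈ 𝒯 := by
    obtain ⟨i, k, a, hik, ha, hmem⟩ := hstep2
    rcases lt_or_gt_of_ne hik with h | h
    · exact ⟨i, a * a, mul_ne_zero ha ha, hstep3 i k a h ha hmem⟩
    · rw [add_comm] at hmem
      exact ⟨k, a * a, mul_ne_zero ha ha, hstep3 k i a h ha hmem⟩
  obtain ⟨i₁, c₁, hc₁, hmem₁⟩ := hstep4
  have hall : ∀ (S : Matrix (Fin m) (Fin m) F) (hS : S.IsSymm),
      (QuotientGroup.mk (Qm S hS) : Cfsg.PSp m F) ∈ T := fun S hS =>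
    hmemT S hS (all_of_single p 𝒯 hc hc₁ hmem₁ S hS)
  -- Step 3: the Levi part
  have hLevi : Uni m F ≤ T.comap ((QuotientGroup.mk' _).comp
      ((Lg : GL (Fin m) F →* Matrix.symplecticGroup (Fin m) F).comp
        Matrix.SpecialLinearGroup.toGL)) := by
    apply Uni_le_of_transvections
    intro i k hik c
    show (QuotientGroup.mk (Lg (tvG (ne_of_lt hik) c)) : Cfsg.PSp m F) ∈ T
    obtain ⟨S', hS', e⟩ := Ym_pair (ne_of_lt hik) (-c)
    rw [neg_neg] at e
    have e2 : Ym (Matrix.single k k 1) (isSymm_single k 1) *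
        Qm (Matrix.single i k (-c) + Matrix.single k i (-c)) (isSymm_pair i k (-c)) *
        (Ym (Matrix.single k k 1) (isSymm_single k 1))⁻¹ =
        Lg (tvG (ne_of_lt hik) c) * Qm S' hS' := by
      rw [e, mul_inv_cancel_right]
    have ht' := hcl' _ (Ym (Matrix.single k k 1) (isSymm_single k 1)) (hall _ (isSymm_pair i k (-c)))
      (by
        rw [e2]
        exact mul_mem (Lg_tvG_mem_U hik _) (Qm_mem_U _ _))
    rw [e2, QuotientGroup.mk_mul] at ht'
    have h7 := mul_mem ht' (inv_mem (hall S' hS'))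
    rwa [mul_inv_cancel_right] at h7
  apply le_antisymm hT
  rintro _ ⟨g, hg, rfl⟩
  obtain ⟨a, S, hS, ha, rfl⟩ := exists_of_mem_U hg
  show (QuotientGroup.mk (Lg (Matrix.SpecialLinearGroup.toGL a) * Qm S hS) : Cfsg.PSp m F) ∈ T
  rw [QuotientGroup.mk_mul]
  exact mul_mem (hLevi ha) (hall S hS)

end Cfsg.Agent.H88.Spn
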