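import Mathlib
import Cfsg.Agent.H88.SpnD

/-!
helper88: `PSp_{2m}(F)` in defining characteristic: elements normalizing `Ū` are classes of
upper triangular matrices, which are products of a torus element and an element of `U`.
-/

set_option autoImplicit false
set_option linter.unusedSectionVars false

namespace Cfsg.Agent.H88.Spn

open Matrix

open Cfsg.Agent.H50.AutPSL

variable {m : ℕ} {F : Type*} [Field F] [Fintype F]

/-- The image of a unipotent radical in `PSp`. -/
def Eb (lam : Fin m ⊕ Fin m → ℕ) : Subgroup (Cfsg.PSp m F) :=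
  (EL lam).map (QuotientGroup.mk' _)

theorem Ub_eq : Ub m F = Eb (rk m) := rfl

theorem mk_mem_normalizer {lam : Fin m ⊕ Fin m → ℕ} {y : Matrix.symplecticGroup (Fin m) F}
    (hy : y ∈ PL lam) :
    (QuotientGroup.mk y : Cfsg.PSp m F) ∈
      Subgroup.normalizer ((Eb lam : Subgroup (Cfsg.PSp m F)) : Set (Cfsg.PSp m F)) := by
  apply Subgroup.mem_normalizer_fintype
  rintro _ ⟨g, hg, rfl⟩
  exact ⟨y * g * y⁻¹, conj_mem_EL hy hg, rfl⟩

/-- Conjugates of elements of `U` by elements normalizing `Ū` lie in `U`. -/
theorem conj_mem_U_of_normalizer [Nonempty (Fin m)] {p f : ℕ} [Fact p.Prime] [CharP F p]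
    (hF : Fintype.card F = p ^ f) {g u : Matrix.symplecticGroup (Fin m) F}
    (hg : (QuotientGroup.mk g : Cfsg.PSp m F) ∈
      Subgroup.normalizer ((Ub m F : Subgroup (Cfsg.PSp m F)) : Set (Cfsg.PSp m F)))
    (hu : u ∈ EL (rk m)) : g⁻¹ * u * g ∈ EL (rk m) := by
  have h1 := (Subgroup.mem_normalizer_iff.1 (inv_mem hg) (QuotientGroup.mk u)).1 ⟨u, hu, rfl⟩
  rw [inv_inv] at h1
  obtain ⟨s, hs, hse⟩ := h1
  have hse' : (QuotientGroup.mk s : Cfsg.PSp m F) = QuotientGroup.mk (g⁻¹ * u * g) := hse
  have h2 : (g⁻¹ * u * g) ^ (p ^ (f * m ^ 2)) = 1 := by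
    have e : g⁻¹ * u * g = g⁻¹ * u * g⁻¹⁻¹ := by rw [inv_inv]
    rw [e, conj_pow, pow_card_U hF hu, mul_one, mul_inv_cancel]
  have h3 := eq_of_mk_eq_of_pow p (f * m ^ 2) (pow_card_U hF hs) h2 hse'
  rw [← h3]
  exact hs

/-- The simple root elements. -/
theorem exists_root (i : Fin m ⊕ Fin m) (hi : 1 ≤ rk m i) :
    ∃ (i' : Fin m ⊕ Fin m) (u : Matrix.symplecticGroup (Fin m) F),
      rk m i' + 1 = rk m i ∧ u ∈ EL (rk m) ∧ u.1 i' i ≠ 0 := by
  rcases i with k | k
  · rw [rk_inl] at hi
    obtain ⟨k', hk'⟩ : ∃ k' : Fin m, k'.val + 1 = k.val := ⟨⟨k.val - 1, by omega⟩, by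
      show k.val - 1 + 1 = k.val
      omega⟩
    have hlt : k' < k := by
      rw [Fin.lt_def]
      omega
    refine ⟨Sum.inl k', Lg (tvG (ne_of_lt hlt) 1), by rw [rk_inl, rk_inl]; exact hk',
      Lg_tvG_mem_U hlt 1, ?_⟩
    rw [Lg_val, Matrix.fromBlocks_apply₁₁, tvG_val, Matrix.add_apply,
      Matrix.one_apply_ne (ne_of_lt hlt), Matrix.single_apply_same, zero_add]
    exact one_ne_zero
  · by_cases hk : k.val + 1 = m
    · refine ⟨Sum.inl k, Qm (Matrix.single k k 1) (isSymm_single k 1), ?_, Qm_mem_U _ _, ?_⟩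
      · rw [rk_inl, rk_inr]
        omega
      · rw [Qm_val, Matrix.fromBlocks_apply₁₂, Matrix.single_apply_same]
        exact one_ne_zero
    · have hkm := k.isLt
      obtain ⟨k', hk'⟩ : ∃ k' : Fin m, k'.val = k.val + 1 := ⟨⟨k.val + 1, by omega⟩, rfl⟩
      have hlt : k < k' := by
        rw [Fin.lt_def]
        omega
      refine ⟨Sum.inr k', Lg (tvG (ne_of_lt hlt) 1), ?_, Lg_tvG_mem_U hlt 1, ?_⟩
      · rw [rk_inr, rk_inr]
        omega
      · rw [Lg_val, Matrix.fromBlocks_apply₂₂, Matrix.transpose_apply, tvG_inv_val,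
          Matrix.add_apply, Matrix.one_apply_ne (ne_of_lt hlt), Matrix.single_apply_same, zero_add]
        exact neg_ne_zero.2 one_ne_zero

/-- Elements normalizing `Ū` are classes of upper triangular matrices. -/
theorem norm_upper [Nonempty (Fin m)] {p f : ℕ} [Fact p.Prime] [CharP F p]
    (hF : Fintype.card F = p ^ f) (g : Matrix.symplecticGroup (Fin m) F)
    (hg : (QuotientGroup.mk g : Cfsg.PSp m F) ∈
      Subgroup.normalizer ((Ub m F : Subgroup (Cfsg.PSp m F)) : Set (Cfsg.PSp m F))) :
    g ∈ PL (rk m) := by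
  have key : ∀ (n : ℕ) (l : Fin m ⊕ Fin m), rk m l = n →
      ∀ i : Fin m ⊕ Fin m, rk m l < rk m i → g.1 i l = 0 := by
    intro n
    induction n using Nat.strong_induction_on with
    | _ n ih =>
      intro l hl
      have hIH : ∀ (j i : Fin m ⊕ Fin m), rk m j < rk m l → rk m j < rk m i → g.1 i j = 0 :=
        fun j i hj hji => ih (rk m j) (by rw [← hl]; exact hj) j rfl i hji
      have key2 : ∀ (d : ℕ) (i : Fin m ⊕ Fin m), 2 * m - rk m i = d → rk m l < rk m i →
          g.1 i l = 0 := by
        intro d
        induction d using Nat.strong_induction_on with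
        | _ d ih2 =>
          intro i hd hli
          have hrk : ∀ j : Fin m ⊕ Fin m, rk m j < 2 * m := by
            intro j
            rcases j with j | j
            · rw [rk_inl]
              have := j.isLt
              omega
            · rw [rk_inr]
              have := j.isLt
              omega
          have hIH2 : ∀ j : Fin m ⊕ Fin m, rk m i < rk m j → g.1 j l = 0 := by
            intro j hj
            have := hrk j
            have := hrk i
            exact ih2 (2 * m - rk m j) (by omega) j rfl (lt_trans hli hj)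
          obtain ⟨i', u, hi', hu, hne⟩ := exists_root (F := F) i (by omega)
          have hs := conj_mem_U_of_normalizer hF hg hu
          have hmat : u.1 * g.1 = g.1 * (g⁻¹ * u * g).1 := by
            have e : u * g = g * (g⁻¹ * u * g) := by group
            exact congrArg Subtype.val e
          have h1 := congrFun (congrFun hmat i') l
          rw [Matrix.mul_apply, Matrix.mul_apply] at h1
          have hii' : i' ≠ i := fun e => by rw [e] at hi'; omega
          have hL : ∑ j, u.1 i' j * g.1 j l = u.1 i' i' * g.1 i' l + u.1 i' i * g.1 i l := by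
            apply Finset.sum_eq_add i' i hii'
            · intro j _ hj
              by_cases hjr : rk m j ≤ rk m i'
              · rw [hu i' j hjr, Matrix.one_apply_ne (Ne.symm hj.1), zero_mul]
              · have hjr' : rk m i < rk m j := by
                  have hne' : rk m j ≠ rk m i := fun e => hj.2 (rk_injective e)
                  omega
                rw [hIH2 j hjr', mul_zero]
            · intro h
              exact absurd (Finset.mem_univ _) h
            · intro h
              exact absurd (Finset.mem_univ _) h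
          have hR : ∑ j, g.1 i' j * (g⁻¹ * u * g).1 j l = g.1 i' l := by
            rw [Finset.sum_eq_single l]
            · rw [hs l l le_rfl, Matrix.one_apply_eq, mul_one]
            · intro j _ hj
              by_cases hjr : rk m l ≤ rk m j
              · rw [hs j l hjr, Matrix.one_apply_ne hj, mul_zero]
              · rw [hIH j i' (not_le.1 hjr) (by omega), zero_mul]
            · intro h
              exact absurd (Finset.mem_univ _) h
          rw [hL, hR, hu i' i' le_rfl, Matrix.one_apply_eq, one_mul] at h1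
          have h2 : u.1 i' i * g.1 i l = 0 := by
            have := h1
            rw [add_eq_left] at this
            exact this
          rcases mul_eq_zero.1 h2 with h3 | h3
          · exact absurd h3 hne
          · exact h3
      intro i hli
      exact key2 _ i rfl hli
  intro i j hij
  exact key (rk m j) j rfl i hij

theorem Lg_Dg_val (e : Fin m → Fˣ) :
    (Lg (Dg e)).1 = Matrix.diagonal
      (Sum.elim (fun i => (e i : F)) (fun i => (((e i)⁻¹ : Fˣ) : F))) := by
  rw [Lg_val, Dg_val, Dg_inv_val, Matrix.diagonal_transpose, Matrix.fromBlocks_diagonal]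

theorem Lg_Dg_mem_PL (lam : Fin m ⊕ Fin m → ℕ) (e : Fin m → Fˣ) : Lg (Dg e) ∈ PL lam := by
  intro i j hij
  rw [Lg_Dg_val, Matrix.diagonal_apply_ne]
  intro h
  rw [h] at hij
  exact lt_irrefl _ hij

/-- Upper triangular symplectic matrices are products of a torus element and an element of `U`. -/
theorem exists_torus {g : Matrix.symplecticGroup (Fin m) F} (hg : g ∈ PL (rk m)) :
    ∃ d : Fin m → Fˣ, (Lg (Dg d))⁻¹ * g ∈ EL (rk m) := by
  have h2 := g.2
  rw [← Matrix.fromBlocks_toBlocks g.1, SymplecticGroup.fromBlocks_mem_iff] at h2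
  have h4 := h2.2.2
  have hdiag : ∀ k : Fin m, g.1 (Sum.inl k) (Sum.inl k) * g.1 (Sum.inr k) (Sum.inr k) = 1 := by
    intro k
    have h5 := congrFun (congrFun h4 k) k
    rw [Matrix.sub_apply, Matrix.mul_apply, Matrix.mul_apply, Matrix.one_apply_eq,
      Finset.sum_eq_single k, Finset.sum_eq_zero, sub_zero] at h5
    · exact h5
    · intro j _
      have : g.1.toBlocks₂₁ j k = 0 := by
        show g.1 (Sum.inr j) (Sum.inl k) = 0
        apply hg
        rw [rk_inl, rk_inr]
        have := j.isLt
        have := k.isLt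
        omega
      rw [Matrix.transpose_apply, this, zero_mul]
    · intro j _ hjk
      rw [Matrix.transpose_apply]
      rcases lt_or_gt_of_ne hjk with h | h
      · have : g.1.toBlocks₂₂ j k = 0 := by
          show g.1 (Sum.inr j) (Sum.inr k) = 0
          apply hg
          rw [rk_inr, rk_inr]
          have := j.isLt
          have := k.isLt
          have : j.val < k.val := h
          omega
        rw [this, mul_zero]
      · have : g.1.toBlocks₁₁ j k = 0 := by
          show g.1 (Sum.inl j) (Sum.inl k) = 0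
          apply hg
          rw [rk_inl, rk_inl]
          exact h
        rw [this, zero_mul]
    · intro h
      exact absurd (Finset.mem_univ _) h
  have hne : ∀ k : Fin m, g.1 (Sum.inl k) (Sum.inl k) ≠ 0 := fun k =>
    left_ne_zero_of_mul_eq_one (hdiag k)
  refine ⟨fun k => Units.mk0 _ (hne k), ?_⟩
  intro i j hij
  have e1 : ((Lg (Dg (fun k => Units.mk0 _ (hne k))))⁻¹ * g).1 =
      (Lg (Dg (fun k => Units.mk0 _ (hne k))⁻¹)).1 * g.1 := by
    rw [← map_inv, ← map_inv]
    rfl
  rw [e1, Lg_Dg_val, Matrix.diagonal_mul]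
  by_cases hij' : i = j
  · subst hij'
    rw [Matrix.one_apply_eq]
    rcases i with k | k
    · simp only [Sum.elim_inl, Pi.inv_apply, Units.val_inv_eq_inv_val, Units.val_mk0]
      exact inv_mul_cancel₀ (hne k)
    · simp only [Sum.elim_inr, Pi.inv_apply, inv_inv, Units.val_mk0]
      exact hdiag k
  · have hlt : rk m j < rk m i := lt_of_le_of_ne hij (fun e => hij' (rk_injective e).symm)
    rw [hg i j hlt, mul_zero, Matrix.one_apply_ne hij']

/-- Torus elements are products of the one-parameter elements `h_i(t)`. -/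
theorem torus_mem (K : Subgroup (Cfsg.PSp m F))
    (h : ∀ (i : Fin m) (t : Fˣ),
      (QuotientGroup.mk (Lg (Dg (Pi.mulSingle i t))) : Cfsg.PSp m F) ∈ K) (d : Fin m → Fˣ) :
    (QuotientGroup.mk (Lg (Dg d)) : Cfsg.PSp m F) ∈ K := by
  have hK : ∀ (i : Fin m) (t : Fˣ), Pi.mulSingle i t ∈ K.comap ((QuotientGroup.mk' _).comp
      ((Lg : GL (Fin m) F →* Matrix.symplecticGroup (Fin m) F).comp Dg)) := h
  have h1 : d ∈ K.comap ((QuotientGroup.mk' _).comp
      ((Lg : GL (Fin m) F →* Matrix.symplecticGroup (Fin m) F).comp Dg)) := by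
    rw [← Finset.univ_prod_mulSingle d]
    exact Subgroup.prod_mem _ (fun i _ => hK i (d i))
  exact h1

theorem bd_mul (a b c d a' b' c' d' : Fin m → F) :
    Matrix.fromBlocks (Matrix.diagonal a) (Matrix.diagonal b) (Matrix.diagonal c)
        (Matrix.diagonal d) *
      Matrix.fromBlocks (Matrix.diagonal a') (Matrix.diagonal b') (Matrix.diagonal c')
        (Matrix.diagonal d') =
    Matrix.fromBlocks (Matrix.diagonal fun i => a i * a' i + b i * c' i)
      (Matrix.diagonal fun i => a i * b' i + b i * d' i)
      (Matrix.diagonal fun i => c i * a' i + d i * c' i)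
      (Matrix.diagonal fun i => c i * b' i + d i * d' i) := by
  rw [Matrix.fromBlocks_multiply]
  simp only [Matrix.diagonal_mul_diagonal, Matrix.diagonal_add]

theorem single_eq_diagonal (k : Fin m) (c : F) :
    Matrix.single k k c = Matrix.diagonal (fun i => if i = k then c else 0) := by
  ext a b
  rw [single_apply_c, Matrix.diagonal_apply]
  by_cases ha : a = k <;> by_cases hb : b = k <;> by_cases hab : a = b <;> simp_all

theorem Qm_single_val (k : Fin m) (c : F) :
    (Qm (Matrix.single k k c) (isSymm_single k c)).1 =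
      Matrix.fromBlocks (Matrix.diagonal fun _ => (1 : F))
        (Matrix.diagonal fun i => if i = k then c else 0) (Matrix.diagonal fun _ => (0 : F))
        (Matrix.diagonal fun _ => (1 : F)) := by
  rw [Qm_val, single_eq_diagonal, Matrix.diagonal_one, Matrix.diagonal_zero]

theorem Ym_single_val (k : Fin m) (c : F) :
    (Ym (Matrix.single k k c) (isSymm_single k c)).1 =
      Matrix.fromBlocks (Matrix.diagonal fun _ => (1 : F)) (Matrix.diagonal fun _ => (0 : F))
        (Matrix.diagonal fun i => if i = k then c else 0)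
        (Matrix.diagonal fun _ => (1 : F)) := by
  rw [Ym_val, single_eq_diagonal, Matrix.diagonal_one, Matrix.diagonal_zero]

/-- `h_k(t) = x(1) y(t-1) x(-t⁻¹) y(-t(t-1))` in the `SL₂` on `⟨e_k, f_k⟩`. -/
theorem hk_eq (k : Fin m) (t : F) (ht : t ≠ 0) :
    Lg (Dg (Pi.mulSingle k (Units.mk0 t ht))) =
      Qm (Matrix.single k k 1) (isSymm_single k 1) *
        Ym (Matrix.single k k (t - 1)) (isSymm_single k _) *
        Qm (Matrix.single k k (-t⁻¹)) (isSymm_single k _) *
        Ym (Matrix.single k k (-(t * (t - 1)))) (isSymm_single k _) := by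
  apply Subtype.ext
  show (Lg (Dg (Pi.mulSingle k (Units.mk0 t ht)))).1 =
      (Qm (Matrix.single k k 1) (isSymm_single k 1)).1 *
        (Ym (Matrix.single k k (t - 1)) (isSymm_single k _)).1 *
        (Qm (Matrix.single k k (-t⁻¹)) (isSymm_single k _)).1 *
        (Ym (Matrix.single k k (-(t * (t - 1)))) (isSymm_single k _)).1
  rw [Qm_single_val, Ym_single_val, Qm_single_val, Ym_single_val, bd_mul, bd_mul, bd_mul, Lg_val,
    Dg_val, Dg_inv_val, Matrix.diagonal_transpose, ← Matrix.diagonal_zero]
  congr 1 <;> congr 1 <;> funext i <;> by_cases hik : i = k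
  all_goals first
    | (rw [hik]
       simp only [Pi.mulSingle_eq_same, ↓reduceIte, Units.val_mk0, Units.val_inv_eq_inv_val]
       first | (field_simp; ring) | field_simp | ring)
    | (simp only [Pi.mulSingle_eq_of_ne hik, if_neg hik, Units.val_one, inv_one]
       ring)

theorem hi_eq {i k : Fin m} (hik : i ≠ k) (t : F) (ht : t ≠ 0) :
    Lg (Dg (Pi.mulSingle i (Units.mk0 t ht))) =
      Lg (Matrix.SpecialLinearGroup.toGL (Matrix.SpecialLinearGroup.diag2n hik t ht)) *
        Lg (Dg (Pi.mulSingle k (Units.mk0 t ht))) := by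
  rw [← map_mul]
  congr 1
  apply Units.ext
  rw [Units.val_mul, Dg_val, Dg_val]
  show _ = (Matrix.SpecialLinearGroup.diag2n hik t ht).1 * _
  rw [Matrix.SpecialLinearGroup.diag2n_coe, Matrix.diagonal_mul_diagonal]
  congr 1
  funext a
  by_cases hai : a = i
  · rw [hai, Pi.mulSingle_eq_same, Pi.mulSingle_eq_of_ne hik, if_pos rfl, Units.val_one, mul_one,
      Units.val_mk0]
  · by_cases hak : a = k
    · rw [hak, Pi.mulSingle_eq_same, Pi.mulSingle_eq_of_ne (Ne.symm hik), if_neg (Ne.symm hik),
        if_pos rfl, Units.val_one, Units.val_mk0, inv_mul_cancel₀ ht]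
    · rw [Pi.mulSingle_eq_of_ne hai, Pi.mulSingle_eq_of_ne hak, if_neg hai, if_neg hak,
        Units.val_one, mul_one]

end Cfsg.Agent.H88.Spn
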