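import Mathlib
import Cfsg.Agent.H88.SpnE
import Cfsg.Agent.H88.PSLnC

/-!
helper88: `PSp_{2m}(F)` in defining characteristic: the radical `E₁` of the stabilizer of a
point is self-centralizing; the defining-characteristic fusion system is simple.
-/

set_option autoImplicit false
set_option linter.unusedSectionVars false

namespace Cfsg.Agent.H88.Spn

open Matrix

open Cfsg.Agent.H50.AutPSL

variable {m : ℕ} {F : Type*} [Field F] [Fintype F]

/-- The level function of the stabilizer of the point `⟨e₀⟩`. -/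
def lam1 (m : ℕ) : Fin m ⊕ Fin m → ℕ
  | Sum.inl i => if i.val = 0 then 0 else 1
  | Sum.inr i => if i.val = 0 then 2 else 1

theorem lam1_inl (i : Fin m) : lam1 m (Sum.inl i) = if i.val = 0 then 0 else 1 := rfl

theorem lam1_inr (i : Fin m) : lam1 m (Sum.inr i) = if i.val = 0 then 2 else 1 := rfl

theorem EL1_le_U : (EL (lam1 m) : Subgroup (Matrix.symplecticGroup (Fin m) F)) ≤ EL (rk m) := by
  apply EL_mono
  intro i j h
  rcases i with i | i <;> rcases j with j | j
  · rw [rk_inl, rk_inl] at h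
    rw [lam1_inl, lam1_inl]
    split_ifs <;> omega
  · rw [rk_inl, rk_inr] at h
    have := i.isLt
    have := j.isLt
    omega
  · rw [lam1_inl, lam1_inr]
    split_ifs <;> omega
  · rw [rk_inr, rk_inr] at h
    rw [lam1_inr, lam1_inr]
    have := i.isLt
    have := j.isLt
    split_ifs <;> omega

theorem U_le_PL1 : (EL (rk m) : Subgroup (Matrix.symplecticGroup (Fin m) F)) ≤ PL (lam1 m) := by
  apply EL_le_PL
  intro i j h
  rcases i with i | i <;> rcases j with j | j
  · rw [lam1_inl, lam1_inl] at h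
    rw [rk_inl, rk_inl]
    split_ifs at h <;> omega
  · rw [lam1_inl, lam1_inr] at h
    split_ifs at h <;> omega
  · rw [rk_inl, rk_inr]
    have := i.isLt
    have := j.isLt
    omega
  · rw [lam1_inr, lam1_inr] at h
    rw [rk_inr, rk_inr]
    have := i.isLt
    have := j.isLt
    split_ifs at h <;> omega

theorem U_le_PLQ : (EL (rk m) : Subgroup (Matrix.symplecticGroup (Fin m) F)) ≤ PL (lamQ m) := by
  apply EL_le_PL
  intro i j hij
  rcases i with i | i <;> rcases j with j | j
  · exact absurd hij (lt_irrefl _)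
  · exact absurd hij (by simp [lamQ])
  · rw [rk_inl, rk_inr]
    have := i.isLt
    have := j.isLt
    omega
  · exact absurd hij (lt_irrefl _)

theorem Lg_mem_PLQ (g : GL (Fin m) F) : Lg g ∈ PL (lamQ m) := by
  intro i j hij
  rw [Lg_val]
  rcases i with i | i <;> rcases j with j | j
  · exact absurd hij (lt_irrefl _)
  · exact absurd hij (by simp [lamQ])
  · rfl
  · exact absurd hij (lt_irrefl _)

theorem Qm_mem_EL1 (S : Matrix (Fin m) (Fin m) F) (hS : S.IsSymm)
    (h : ∀ a b : Fin m, a.val ≠ 0 → b.val ≠ 0 → S a b = 0) : Qm S hS ∈ EL (lam1 m) := by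
  intro i j hij
  rw [Qm_val]
  rcases i with i | i <;> rcases j with j | j
  · rw [Matrix.fromBlocks_apply₁₁]
    by_cases h' : i = j
    · rw [h', Matrix.one_apply_eq, Matrix.one_apply_eq]
    · rw [Matrix.one_apply_ne h', Matrix.one_apply_ne (fun e => h' (Sum.inl.inj e))]
  · rw [Matrix.fromBlocks_apply₁₂, Matrix.one_apply_ne (by simp)]
    rw [lam1_inl, lam1_inr] at hij
    apply h
    · intro h0
      rw [if_pos h0] at hij
      split_ifs at hij <;> omega
    · intro h0
      rw [if_pos h0] at hij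
      split_ifs at hij <;> omega
  · rw [Matrix.fromBlocks_apply₂₁, Matrix.one_apply_ne (by simp)]
    rfl
  · rw [Matrix.fromBlocks_apply₂₂]
    by_cases h' : i = j
    · rw [h', Matrix.one_apply_eq, Matrix.one_apply_eq]
    · rw [Matrix.one_apply_ne h', Matrix.one_apply_ne (fun e => h' (Sum.inr.inj e))]

theorem Lg_tvG_mem_EL1 {o j : Fin m} (ho : o.val = 0) (hj : o ≠ j) (c : F) :
    Lg (tvG hj c) ∈ EL (lam1 m) := by
  have hj0 : j.val ≠ 0 := fun h => hj (Fin.ext (ho.trans h.symm))
  intro a b hab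
  rw [Lg_val]
  rcases a with a | a <;> rcases b with b | b
  · rw [Matrix.fromBlocks_apply₁₁, tvG_val, Matrix.add_apply, single_apply_c, if_neg, add_zero]
    · by_cases h' : a = b
      · rw [h', Matrix.one_apply_eq, Matrix.one_apply_eq]
      · rw [Matrix.one_apply_ne h', Matrix.one_apply_ne (fun e => h' (Sum.inl.inj e))]
    · rintro ⟨rfl, rfl⟩
      rw [lam1_inl, lam1_inl, if_pos ho, if_neg hj0] at hab
      omega
  · rw [Matrix.fromBlocks_apply₁₂, Matrix.one_apply_ne (by simp)]
    rfl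
  · rw [Matrix.fromBlocks_apply₂₁, Matrix.one_apply_ne (by simp)]
    rfl
  · rw [Matrix.fromBlocks_apply₂₂, Matrix.transpose_apply, tvG_inv_val, Matrix.add_apply,
      single_apply_c, if_neg, add_zero]
    · by_cases h' : a = b
      · rw [h', Matrix.one_apply_eq, Matrix.one_apply_eq]
      · rw [Matrix.one_apply_ne (Ne.symm h'), Matrix.one_apply_ne (fun e => h' (Sum.inr.inj e))]
    · rintro ⟨rfl, rfl⟩
      rw [lam1_inr, lam1_inr, if_pos ho, if_neg hj0] at hab
      omega

/-- The radical `E₁` is self-centralizing modulo `±1`. -/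
theorem cent_E1 (o : Fin m) (ho : o.val = 0) (x : Matrix.symplecticGroup (Fin m) F)
    (h0 : x * Qm (Matrix.single o o 1) (isSymm_single o 1) =
      Qm (Matrix.single o o 1) (isSymm_single o 1) * x)
    (h2 : ∀ j : Fin m, j ≠ o →
      x * Qm (Matrix.single o j 1 + Matrix.single j o 1) (isSymm_pair o j 1) =
        Qm (Matrix.single o j 1 + Matrix.single j o 1) (isSymm_pair o j 1) * x)
    (h1 : ∀ (j : Fin m) (hj : o ≠ j), x * Lg (tvG hj 1) = Lg (tvG hj 1) * x) :
    ∃ lam : F, (lam = 1 ∨ lam = -1) ∧ ∀ i j : Fin m ⊕ Fin m, lam1 m j ≤ lam1 m i →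
      x.1 i j = lam * (1 : Matrix (Fin m ⊕ Fin m) (Fin m ⊕ Fin m) F) i j := by
  obtain ⟨A, B, C, D, hx1⟩ : ∃ A B C D : Matrix (Fin m) (Fin m) F,
      x.1 = Matrix.fromBlocks A B C D := ⟨_, _, _, _, (Matrix.fromBlocks_toBlocks x.1).symm⟩
  have hQ : ∀ (S : Matrix (Fin m) (Fin m) F) (hS : S.IsSymm), x * Qm S hS = Qm S hS * x →
      S * C = 0 ∧ A * S = S * D := by
    intro S hS hcomm
    have h3 : x.1 * (Qm S hS).1 = (Qm S hS).1 * x.1 := congrArg Subtype.val hcomm
    rw [hx1, Qm_val, Matrix.fromBlocks_multiply, Matrix.fromBlocks_multiply,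
      Matrix.fromBlocks_inj] at h3
    obtain ⟨h4, h5, -, -⟩ := h3
    simp only [Matrix.mul_one, Matrix.mul_zero, add_zero, Matrix.one_mul] at h4 h5
    constructor
    · have := h4
      rw [left_eq_add] at this
      exact this
    · have h6 : A * S + B = S * D + B := by rw [h5, add_comm]
      exact add_right_cancel h6
  obtain ⟨hC0, hAD0⟩ := hQ _ _ h0
  have hC : C = 0 := by
    ext k l
    by_cases hk : k = o
    · have h3 := congrFun (congrFun hC0 o) l
      rw [single_mul_apply', if_pos rfl, one_mul] at h3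
      rw [hk]
      exact h3
    · have h3 := congrFun (congrFun (hQ _ _ (h2 k hk)).1 o) l
      rw [Matrix.add_mul, Matrix.add_apply, single_mul_apply', single_mul_apply', if_pos rfl,
        if_neg (Ne.symm hk), one_mul, add_zero] at h3
      exact h3
  have hAo : ∀ k : Fin m, k ≠ o → A k o = 0 := by
    intro k hk
    have h3 := congrFun (congrFun hAD0 k) o
    rw [mul_single_apply', if_pos rfl, single_mul_apply', if_neg hk, mul_one] at h3
    exact h3
  have hDo : ∀ l : Fin m, l ≠ o → D o l = 0 := by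
    intro l hl
    have h3 := congrFun (congrFun hAD0 o) l
    rw [mul_single_apply', if_neg hl, single_mul_apply', if_pos rfl, one_mul] at h3
    exact h3.symm
  have hAD : A o o = D o o := by
    have h3 := congrFun (congrFun hAD0 o) o
    rw [mul_single_apply', if_pos rfl, single_mul_apply', if_pos rfl, one_mul, mul_one] at h3
    exact h3
  have hent : ∀ j : Fin m, j ≠ o → ∀ k l : Fin m,
      (if l = j then A k o else 0) + (if l = o then A k j else 0) =
        (if k = o then D j l else 0) + (if k = j then D o l else 0) := by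
    intro j hj k l
    have h3 := congrFun (congrFun (hQ _ _ (h2 j hj)).2 k) l
    rw [Matrix.mul_add, Matrix.add_mul, Matrix.add_apply, Matrix.add_apply, mul_single_apply',
      mul_single_apply', single_mul_apply', single_mul_apply'] at h3
    simp only [mul_one, one_mul] at h3
    exact h3
  have hDjj : ∀ j : Fin m, j ≠ o → D j j = A o o := by
    intro j hj
    have h3 := hent j hj o j
    rw [if_pos rfl, if_neg hj, if_pos rfl, if_neg (Ne.symm hj), add_zero, add_zero] at h3
    exact h3.symm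
  have hAjj : ∀ j : Fin m, j ≠ o → A j j = A o o := by
    intro j hj
    have h3 := hent j hj j o
    rw [if_neg (Ne.symm hj), if_pos rfl, if_neg hj, if_pos rfl, zero_add, zero_add] at h3
    rw [h3, hAD]
  have hAkj : ∀ k j : Fin m, j ≠ o → k ≠ o → k ≠ j → A k j = 0 := by
    intro k j hj hk hkj
    have h3 := hent j hj k o
    rw [if_neg (Ne.symm hj), if_pos rfl, if_neg hk, if_neg hkj, zero_add, zero_add] at h3
    exact h3
  have hDjl : ∀ j l : Fin m, j ≠ o → l ≠ o → l ≠ j → D j l = 0 := by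
    intro j l hj hl hlj
    have h3 := hent j hj o l
    rw [if_neg hlj, if_neg hl, if_pos rfl, if_neg (Ne.symm hj), zero_add, add_zero] at h3
    exact h3.symm
  have hB : ∀ j l : Fin m, j ≠ o → l ≠ o → B j l = 0 := by
    intro j l hj hl
    have h3 : x.1 * (Lg (tvG (Ne.symm hj) 1)).1 = (Lg (tvG (Ne.symm hj) 1)).1 * x.1 :=
      congrArg Subtype.val (h1 j (Ne.symm hj))
    rw [hx1, Lg_val, tvG_val, tvG_inv_val, Matrix.fromBlocks_multiply, Matrix.fromBlocks_multiply,
      Matrix.fromBlocks_inj] at h3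
    obtain ⟨-, h4, -, -⟩ := h3
    rw [Matrix.transpose_add, Matrix.transpose_one, Matrix.transpose_single] at h4
    simp only [Matrix.mul_zero, Matrix.zero_mul, zero_add, add_zero, Matrix.mul_add,
      Matrix.add_mul, Matrix.mul_one, Matrix.one_mul] at h4
    have h5 := add_left_cancel h4
    have h6 := congrFun (congrFun h5 o) l
    rw [mul_single_apply', if_neg hl, single_mul_apply', if_pos rfl, one_mul] at h6
    exact h6.symm
  have h2' := x.2
  rw [hx1, SymplecticGroup.fromBlocks_mem_iff, hC] at h2'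
  have h4 := h2'.2.2
  have hlam2 : A o o * A o o = 1 := by
    have h5 := congrFun (congrFun h4 o) o
    rw [Matrix.transpose_zero, Matrix.zero_mul, sub_zero, Matrix.mul_apply, Matrix.one_apply_eq,
      Finset.sum_eq_single o] at h5
    · rw [Matrix.transpose_apply, ← hAD] at h5
      exact h5
    · intro k _ hk
      rw [Matrix.transpose_apply, hAo k hk, zero_mul]
    · intro h
      exact absurd (Finset.mem_univ _) h
  refine ⟨A o o, mul_self_eq_one_iff.1 hlam2, ?_⟩
  intro i j hij
  rw [hx1]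
  rcases i with a | a <;> rcases j with b | b
  · rw [Matrix.fromBlocks_apply₁₁]
    rw [lam1_inl, lam1_inl] at hij
    by_cases hab : a = b
    · rw [hab, Matrix.one_apply_eq, mul_one]
      by_cases hb : b = o
      · rw [hb]
      · exact hAjj b hb
    · rw [Matrix.one_apply_ne (fun e => hab (Sum.inl.inj e)), mul_zero]
      by_cases ha : a = o
      · rw [ha, if_pos ho] at hij
        have hb0 : b.val = 0 := by
          by_contra h
          rw [if_neg h] at hij
          omega
        exact absurd (ha.trans (Fin.ext (ho.trans hb0.symm))) hab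
      · by_cases hb : b = o
        · rw [hb]
          exact hAo a ha
        · exact hAkj a b hb ha hab
  · rw [Matrix.fromBlocks_apply₁₂, Matrix.one_apply_ne (by simp), mul_zero]
    rw [lam1_inl, lam1_inr] at hij
    apply hB
    · intro h0
      rw [h0, if_pos ho] at hij
      split_ifs at hij <;> omega
    · intro h0
      rw [h0, if_pos ho] at hij
      split_ifs at hij <;> omega
  · rw [Matrix.fromBlocks_apply₂₁, hC, Matrix.one_apply_ne (by simp), mul_zero]
    rfl
  · rw [Matrix.fromBlocks_apply₂₂]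
    rw [lam1_inr, lam1_inr] at hij
    by_cases hab : a = b
    · rw [hab, Matrix.one_apply_eq, mul_one]
      by_cases hb : b = o
      · rw [hb, hAD]
      · exact hDjj b hb
    · rw [Matrix.one_apply_ne (fun e => hab (Sum.inr.inj e)), mul_zero]
      by_cases hb : b = o
      · rw [hb, if_pos ho] at hij
        have ha0 : a.val = 0 := by
          by_contra h
          rw [if_neg h] at hij
          omega
        exact absurd ((Fin.ext (ha0.trans ho.symm)).trans hb.symm) hab
      · by_cases ha : a = o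
        · rw [ha]
          exact hDo b hb
        · exact hDjl a b ha hb (Ne.symm hab)

theorem pow_p_eq_one_of_add {G : Type*} [Group G] (p : ℕ) [CharP F p] (φ : F → G)
    (hφ : ∀ a b, φ (a + b) = φ a * φ b) (c : F) : φ c ^ p = 1 := by
  have h0 : φ 0 = 1 := by
    have h1 := hφ 0 0
    rw [add_zero] at h1
    exact left_eq_mul.1 h1
  have hpow : ∀ n : ℕ, φ c ^ n = φ (n * c) := by
    intro n
    induction n with
    | zero => rw [pow_zero, Nat.cast_zero, zero_mul, h0]
    | succ n ih => rw [pow_succ, ih, ← hφ, Nat.cast_succ, add_mul, one_mul]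
  rw [hpow, CharP.cast_eq_zero, zero_mul, h0]

theorem orderOf_mk_of_pow (p : ℕ) [Fact p.Prime] (x : Matrix.symplecticGroup (Fin m) F)
    (h : x ^ p = 1) : ∃ k : ℕ, orderOf (QuotientGroup.mk x : Cfsg.PSp m F) = p ^ k := by
  have h1 : (QuotientGroup.mk x : Cfsg.PSp m F) ^ p ^ 1 = 1 := by
    rw [pow_one, ← QuotientGroup.mk_pow, h]
    rfl
  obtain ⟨k, -, hk⟩ := (Nat.dvd_prime_pow (Fact.out : p.Prime)).1 (orderOf_dvd_of_pow_eq_one h1)
  exact ⟨k, hk⟩

theorem Ym_mul (C C' : Matrix (Fin m) (Fin m) F) (hC : C.IsSymm) (hC' : C'.IsSymm) :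
    Ym C hC * Ym C' hC' = Ym (C + C') (hC.add hC') := by
  apply Subtype.ext
  show Matrix.fromBlocks 1 0 C 1 * Matrix.fromBlocks 1 0 C' 1 = Matrix.fromBlocks 1 0 (C + C') 1
  rw [Matrix.fromBlocks_multiply]
  simp

theorem Ym_congr {C C' : Matrix (Fin m) (Fin m) F} (h : C = C') (hC : C.IsSymm) :
    Ym C hC = Ym C' (h ▸ hC) := by subst h; rfl

theorem Qm_single_pow (p : ℕ) [CharP F p] (k : Fin m) (c : F) :
    Qm (Matrix.single k k c) (isSymm_single k c) ^ p = 1 := by
  apply pow_p_eq_one_of_add p (fun c => Qm (Matrix.single k k c) (isSymm_single k c))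
  intro a b
  rw [Qm_mul]
  exact Qm_congr (Matrix.single_add k k a b) _

theorem Ym_single_pow (p : ℕ) [CharP F p] (k : Fin m) (c : F) :
    Ym (Matrix.single k k c) (isSymm_single k c) ^ p = 1 := by
  apply pow_p_eq_one_of_add p (fun c => Ym (Matrix.single k k c) (isSymm_single k c))
  intro a b
  rw [Ym_mul]
  exact Ym_congr (Matrix.single_add k k a b) _

theorem Lg_tv_pow (p : ℕ) [CharP F p] {a b : Fin m} (hab : a ≠ b) (c : F) :
    Lg (Matrix.SpecialLinearGroup.toGL (Matrix.SpecialLinearGroup.transvection hab c)) ^ p = 1 := by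
  apply pow_p_eq_one_of_add p
    (fun c => Lg (Matrix.SpecialLinearGroup.toGL (Matrix.SpecialLinearGroup.transvection hab c)))
  intro x y
  rw [← map_mul, ← map_mul, Matrix.SpecialLinearGroup.transvection_add]

theorem Qm_single_mem_PL1 (k : Fin m) (hk : k.val ≠ 0) (c : F) :
    Qm (Matrix.single k k c) (isSymm_single k c) ∈ PL (lam1 m) := by
  intro i j hij
  rw [Qm_val]
  rcases i with a | a <;> rcases j with b | b
  · rw [Matrix.fromBlocks_apply₁₁]
    exact Matrix.one_apply_ne (fun e => by rw [e] at hij; exact lt_irrefl _ hij)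
  · rw [Matrix.fromBlocks_apply₁₂, single_apply_c, if_neg]
    rintro ⟨rfl, rfl⟩
    rw [lam1_inl, lam1_inr, if_neg hk, if_neg hk] at hij
    exact lt_irrefl _ hij
  · rfl
  · rw [Matrix.fromBlocks_apply₂₂]
    exact Matrix.one_apply_ne (fun e => by rw [e] at hij; exact lt_irrefl _ hij)

theorem Ym_single_mem_PL1 (k : Fin m) (hk : k.val ≠ 0) (c : F) :
    Ym (Matrix.single k k c) (isSymm_single k c) ∈ PL (lam1 m) := by
  intro i j hij
  rw [Ym_val]
  rcases i with a | a <;> rcases j with b | b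
  · rw [Matrix.fromBlocks_apply₁₁]
    exact Matrix.one_apply_ne (fun e => by rw [e] at hij; exact lt_irrefl _ hij)
  · rfl
  · rw [Matrix.fromBlocks_apply₂₁, single_apply_c, if_neg]
    rintro ⟨rfl, rfl⟩
    rw [lam1_inl, lam1_inr, if_neg hk, if_neg hk] at hij
    exact lt_irrefl _ hij
  · rw [Matrix.fromBlocks_apply₂₂]
    exact Matrix.one_apply_ne (fun e => by rw [e] at hij; exact lt_irrefl _ hij)

/-- **The defining-characteristic fusion system of `PSp_{2m}(K)`, `m ≥ 2`, `(m, |K|) ≠ (2, 2)`,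
is simple.** -/
theorem psp_fusion_simple {K : Type*} [Field K] [Fintype K] (p : ℕ) [Fact p.Prime] [CharP K p]
    (m : ℕ) (hm : 2 ≤ m) (hex : m = 2 → 3 ≤ Fintype.card K) (S : Sylow p (Cfsg.PSp m K)) :
    (Cfsg.groupFusionSystem (S : Subgroup (Cfsg.PSp m K))).IsSimple p := by
  haveI : Nonempty (Fin m) := ⟨⟨0, by omega⟩⟩
  obtain ⟨f, -, hF⟩ := FiniteField.card K p
  have hf : 1 ≤ (f : ℕ) := f.pos
  obtain ⟨P, hP⟩ := exists_sylow_Ub (m := m) hF hf
  obtain ⟨o, ho⟩ : ∃ o : Fin m, o.val = 0 := ⟨⟨0, by omega⟩, rfl⟩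
  obtain ⟨k₁, hk₁⟩ : ∃ k₁ : Fin m, k₁.val = 1 := ⟨⟨1, by omega⟩, rfl⟩
  have hk₁0 : k₁.val ≠ 0 := by omega
  have mkU : ∀ g : Matrix.symplecticGroup (Fin m) K, g ∈ EL (rk m) →
      (QuotientGroup.mk g : Cfsg.PSp m K) ∈ Ub m K := fun g hg => ⟨g, hg, rfl⟩
  have hord : ∀ x ∈ Ub m K, ∃ k : ℕ, orderOf x = p ^ k := by
    intro x hx
    have hP1 : IsPGroup p ↥(Ub m K) := (isPGroup_U hF).map _
    obtain ⟨k, hk⟩ := (IsPGroup.iff_orderOf.1 hP1) ⟨x, hx⟩
    exact ⟨k, by rw [← hk, ← Subgroup.orderOf_coe]⟩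
  have hUQ : Ub m K ≤ Subgroup.normalizer
      ((Eb (lamQ m) : Subgroup (Cfsg.PSp m K)) : Set (Cfsg.PSp m K)) := by
    rintro _ ⟨u, hu, rfl⟩
    exact mk_mem_normalizer (U_le_PLQ hu)
  have hU1 : Ub m K ≤ Subgroup.normalizer
      ((Eb (lam1 m) : Subgroup (Cfsg.PSp m K)) : Set (Cfsg.PSp m K)) := by
    rintro _ ⟨u, hu, rfl⟩
    exact mk_mem_normalizer (U_le_PL1 hu)
  have hX : ∀ c : K, (QuotientGroup.mk (Qm (Matrix.single k₁ k₁ c) (isSymm_single k₁ c)) :
      Cfsg.PSp m K) ∈ Subgroup.closure {y : Cfsg.PSp m K | y ∈ Subgroup.normalizer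
        ((Eb (lam1 m) : Subgroup (Cfsg.PSp m K)) : Set (Cfsg.PSp m K)) ∧
        ∃ k : ℕ, orderOf y = p ^ k} := fun c =>
    Subgroup.subset_closure ⟨mk_mem_normalizer (Qm_single_mem_PL1 k₁ hk₁0 c),
      orderOf_mk_of_pow p _ (Qm_single_pow p k₁ c)⟩
  have hY : ∀ c : K, (QuotientGroup.mk (Ym (Matrix.single k₁ k₁ c) (isSymm_single k₁ c)) :
      Cfsg.PSp m K) ∈ Subgroup.closure {y : Cfsg.PSp m K | y ∈ Subgroup.normalizer
        ((Eb (lam1 m) : Subgroup (Cfsg.PSp m K)) : Set (Cfsg.PSp m K)) ∧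
        ∃ k : ℕ, orderOf y = p ^ k} := fun c =>
    Subgroup.subset_closure ⟨mk_mem_normalizer (Ym_single_mem_PL1 k₁ hk₁0 c),
      orderOf_mk_of_pow p _ (Ym_single_pow p k₁ c)⟩
  have hTv : ∀ (a b : Fin m) (hab : a ≠ b) (c : K),
      (QuotientGroup.mk (Lg (Matrix.SpecialLinearGroup.toGL
        (Matrix.SpecialLinearGroup.transvection hab c))) : Cfsg.PSp m K) ∈
      Subgroup.closure {y : Cfsg.PSp m K | y ∈ Subgroup.normalizer
        ((Eb (lamQ m) : Subgroup (Cfsg.PSp m K)) : Set (Cfsg.PSp m K)) ∧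
        ∃ k : ℕ, orderOf y = p ^ k} := fun a b hab c =>
    Subgroup.subset_closure ⟨mk_mem_normalizer (Lg_mem_PLQ _),
      orderOf_mk_of_pow p _ (Lg_tv_pow p hab c)⟩
  refine Cfsg.Agent.H88.simple_of_centric_family_model p P ?_ ?_
    {Eb (lamQ m), Eb (lam1 m)} ?_ ?_ S
  · rw [hP]
    intro h
    have hmem := mkU _ (Qm_mem_U (Matrix.single o o (1 : K)) (isSymm_single o 1))
    rw [h, Subgroup.mem_bot] at hmem
    have h1 := eq_of_mk_eq_of_pow p (f * m ^ 2) (pow_card_U hF (Qm_mem_U _ _)) (one_pow _) hmem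
    rw [← Qm_zero] at h1
    have h2 := Qm_injective h1
    have h3 := congrFun (congrFun h2 o) o
    rw [Matrix.single_apply_same, Matrix.zero_apply] at h3
    exact one_ne_zero h3
  · intro T hT hT1 hcl
    rw [hP] at hT hcl ⊢
    exact hcl_Ub hF hm hex T hT hT1 hcl
  · rintro E (rfl | hE)
    · refine ⟨?_, ?_, ?_⟩
      · rw [hP]
        exact Subgroup.map_mono ELQ_le_U
      · rw [hP]
        exact hUQ
      · intro x hx
        obtain ⟨x, rfl⟩ := QuotientGroup.mk_surjective x
        have hc : ∀ (S : Matrix (Fin m) (Fin m) K) (hS : S.IsSymm),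
            (QuotientGroup.mk x : Cfsg.PSp m K) * QuotientGroup.mk (Qm S hS) =
              QuotientGroup.mk (Qm S hS) * QuotientGroup.mk x := fun S hS =>
          (Subgroup.mem_centralizer_iff.1 hx _ ⟨_, Qm_mem_ELQ S hS, rfl⟩).symm
        obtain ⟨S, hS, h1⟩ := cent_Q x
          (fun S hS => comm_of_mk_comm hF (Qm_mem_U S hS) (hc S hS))
        rcases h1 with h1 | h1
        · rw [h1]
          exact ⟨_, Qm_mem_ELQ S hS, rfl⟩
        · rw [(mk_eq_mk_iff _ _).2 (Or.inr h1)]
          exact ⟨_, Qm_mem_ELQ S hS, rfl⟩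
    · rw [Set.mem_singleton_iff] at hE
      subst hE
      refine ⟨?_, ?_, ?_⟩
      · rw [hP]
        exact Subgroup.map_mono EL1_le_U
      · rw [hP]
        exact hU1
      · intro x hx
        obtain ⟨x, rfl⟩ := QuotientGroup.mk_surjective x
        have hc : ∀ y : Matrix.symplecticGroup (Fin m) K, y ∈ EL (lam1 m) → x * y = y * x :=
          fun y hy => comm_of_mk_comm hF (EL1_le_U hy)
            ((Subgroup.mem_centralizer_iff.1 hx _ ⟨y, hy, rfl⟩).symm)
        obtain ⟨lam, hlam, hent⟩ := cent_E1 o ho x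
          (hc _ (Qm_mem_EL1 _ _ (by
            intro a b ha hb
            rw [single_apply_c, if_neg]
            rintro ⟨rfl, -⟩
            exact ha ho)))
          (fun j hj => hc _ (Qm_mem_EL1 _ _ (by
            intro a b ha hb
            rw [Matrix.add_apply, single_apply_c, single_apply_c, if_neg, if_neg, add_zero]
            · rintro ⟨-, rfl⟩
              exact hb ho
            · rintro ⟨rfl, -⟩
              exact ha ho)))
          (fun j hj => hc _ (Lg_tvG_mem_EL1 ho hj 1))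
        rcases hlam with rfl | rfl
        · exact ⟨x, fun i j hij => by rw [hent i j hij, one_mul], rfl⟩
        · refine ⟨Cfsg.Agent.H6.spNegOne (Fin m) K * x, fun i j hij => ?_,
            Cfsg.Agent.H45.psp_mk_negOne_mul m x⟩
          rw [Cfsg.Agent.H45.sp_negOne_mul_coe, Matrix.neg_apply, hent i j hij]
          ring
  · intro g hg
    obtain ⟨g, rfl⟩ := QuotientGroup.mk_surjective g
    rw [hP] at hg ⊢
    have hup := norm_upper hF g hg
    obtain ⟨d, hd⟩ := exists_torus hup
    have e : g = Lg (Dg d) * ((Lg (Dg d))⁻¹ * g) := by rw [mul_inv_cancel_left]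
    rw [e, QuotientGroup.mk_mul]
    refine mul_mem (torus_mem _ ?_ d) ?_
    · intro i t
      have et : t = Units.mk0 (t : K) t.ne_zero := (Units.mk0_val t _).symm
      have hk1mem : (QuotientGroup.mk (Lg (Dg (Pi.mulSingle k₁ t))) : Cfsg.PSp m K) ∈
          Subgroup.closure {x : Cfsg.PSp m K | x ∈ Subgroup.normalizer
            ((Ub m K : Subgroup (Cfsg.PSp m K)) : Set (Cfsg.PSp m K)) ∧
            ∃ E ∈ ({Eb (lamQ m), Eb (lam1 m)} : Set (Subgroup (Cfsg.PSp m K))),
              x ∈ Subgroup.closure {y : Cfsg.PSp m K | y ∈ Subgroup.normalizer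
                ((E : Subgroup (Cfsg.PSp m K)) : Set (Cfsg.PSp m K)) ∧
                ∃ k : ℕ, orderOf y = p ^ k}} := by
        apply Subgroup.subset_closure
        refine ⟨mk_mem_normalizer (lam := rk m) (Lg_Dg_mem_PL _ _), Eb (lam1 m),
          Set.mem_insert_of_mem _ rfl, ?_⟩
        rw [et, hk_eq, QuotientGroup.mk_mul, QuotientGroup.mk_mul, QuotientGroup.mk_mul]
        exact mul_mem (mul_mem (mul_mem (hX _) (hY _)) (hX _)) (hY _)
      by_cases hik : i = k₁
      · rw [hik]
        exact hk1mem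
      · have e2 : Lg (Dg (Pi.mulSingle i t)) =
            Lg (Matrix.SpecialLinearGroup.toGL
              (Matrix.SpecialLinearGroup.diag2n hik (t : K) t.ne_zero)) *
            Lg (Dg (Pi.mulSingle k₁ t)) := by
          conv_lhs => rw [et]
          conv_rhs => rw [et]
          exact hi_eq hik _ _
        rw [e2, QuotientGroup.mk_mul]
        refine mul_mem ?_ hk1mem
        apply Subgroup.subset_closure
        refine ⟨?_, Eb (lamQ m), Set.mem_insert _ _, ?_⟩
        · apply mk_mem_normalizer (lam := rk m)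
          have e3 : Lg (Matrix.SpecialLinearGroup.toGL
              (Matrix.SpecialLinearGroup.diag2n hik (t : K) t.ne_zero)) =
              Lg (Dg (Pi.mulSingle i t)) * (Lg (Dg (Pi.mulSingle k₁ t)))⁻¹ := by
            rw [e2, mul_inv_cancel_right]
          rw [e3]
          exact mul_mem (Lg_Dg_mem_PL _ _) (inv_mem (Lg_Dg_mem_PL _ _))
        · rw [Cfsg.Agent.H88.Ln.diag2n_eq hik]
          simp only [map_mul, QuotientGroup.mk_mul]
          exact mul_mem (mul_mem (mul_mem (hTv _ _ _ _) (hTv _ _ _ _)) (hTv _ _ _ _))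
            (hTv _ _ _ _)
    · apply Subgroup.subset_closure
      exact ⟨Subgroup.le_normalizer (mkU _ hd), Eb (lamQ m), Set.mem_insert _ _,
        Subgroup.subset_closure ⟨hUQ (mkU _ hd), hord _ (mkU _ hd)⟩⟩

end Cfsg.Agent.H88.Spn
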