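import Cfsg.Agent.H90.Constrained
import Cfsg.Agent.H87.NormalSub
import Cfsg.Agent.H87.FusIso

set_option autoImplicit false
set_option maxHeartbeats 1000000

/-!
Constrained group fusion systems pass to subnormal subgroups.
-/

namespace Cfsg.Agent.H88

open Cfsg Cfsg.FusionSystem Cfsg.Agent.H86

variable {G : Type*} [Group G]

theorem constrained_step [Finite G] {p : ℕ} [Fact p.Prime] {K H T U : Subgroup G} (hTK : T ≤ K)
    (hUH : U ≤ H) (hU : U = T ⊓ H) (hHK : H ≤ K) (hnorm : K ≤ Subgroup.normalizer (H : Set G))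
    (hsyl : H87.IsSylIn p T K) (hc : (fusionSystemOfSubgroup K T hTK).IsConstrained p) :
    H87.IsSylIn p U H ∧ (fusionSystemOfSubgroup H U hUH).IsConstrained p := by
  subst hU
  have hsyl' : H87.IsSylIn p (T ⊓ H) H := hsyl.inf_of_normal hTK hHK hnorm
  refine ⟨hsyl', ?_⟩
  have hT : IsPGroup p T := hsyl.isPGroup hTK
  refine H90.constrained_of_subsystem hT hc _ (H87.fusionSystemOfSubgroup_saturated hUH hsyl') ?_ ?_
  · rintro P φ ⟨hP, hφ, g, hg, hφg⟩
    exact ⟨hP.trans inf_le_left, fun x => (hφ x).1, g, hHK hg, hφg⟩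
  · refine ⟨inf_le_left, fun R hR φ hφ x => ?_⟩
    obtain ⟨hRT, hφT, g, hg, hφg⟩ := hφ
    refine ⟨hφT x, ?_⟩
    rw [hφg]
    exact (Subgroup.mem_normalizer_iff.1 (hnorm hg) x).1 (hR x.2).2

theorem constrained_subnormal [Finite G] {p : ℕ} [Fact p.Prime] (S : Sylow p G)
    (hF : (groupFusionSystem (S : Subgroup G)).IsConstrained p) {H : Subgroup G}
    (hH : H.IsSubnormal) :
    H87.IsSylIn p ((S : Subgroup G) ⊓ H) H ∧
      (fusionSystemOfSubgroup H ((S : Subgroup G) ⊓ H) inf_le_right).IsConstrained p := by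
  induction hH with
  | top =>
    have hsyl : H87.IsSylIn p ((S : Subgroup G) ⊓ ⊤) ⊤ := by
      rw [H87.isSylIn_iff_card inf_le_right, inf_top_eq, Subgroup.card_top]
      exact S.card_eq_multiplicity
    refine ⟨hsyl, ?_⟩
    refine H90.constrained_of_subsystem S.isPGroup' hF _
      (H87.fusionSystemOfSubgroup_saturated _ hsyl) ?_ ?_
    · rintro P φ ⟨hP, hφ, g, hg, hφg⟩
      exact ⟨hP.trans inf_le_left, fun x => (hφ x).1, g, hφg⟩
    · exact ⟨inf_le_left, fun R hR φ hφ x => ⟨hφ.2.1 x, Subgroup.mem_top _⟩⟩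
  | step H K hHK hK hN ih =>
    obtain ⟨hsyl, hc⟩ := ih
    exact constrained_step inf_le_right inf_le_right (by rw [inf_assoc, inf_eq_right.2 hHK]) hHK
      ((Subgroup.normal_subgroupOf_iff_le_normalizer hHK).1 hN) hsyl hc

/-- The identification of `S ⊓ H` with `S.subgroupOf H`. -/
def infEquivSubgroupOf (S H : Subgroup G) : ↥(S ⊓ H) ≃* ↥(S.subgroupOf H) where
  toFun x := ⟨⟨x.1, x.2.2⟩, x.2.1⟩
  invFun y := ⟨y.1.1, y.2, y.1.2⟩
  left_inv _ := rfl
  right_inv _ := rfl
  map_mul' _ _ := rfl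

theorem constrained_subgroupOf [Finite G] {p : ℕ} [Fact p.Prime] (S : Sylow p G)
    (hF : (groupFusionSystem (S : Subgroup G)).IsConstrained p) (H : Subgroup G)
    (hH : H.IsSubnormal) :
    (groupFusionSystem ((S : Subgroup G).subgroupOf H)).IsConstrained p := by
  obtain ⟨hsyl, hsat, Q, hQn, hQc⟩ := constrained_subnormal S hF hH
  have hι := H87.fusionSystemOfSubgroup_realized (inf_le_right : (S : Subgroup G) ⊓ H ≤ H)
  have hiso := H87.fusIso_of_realized hι (infEquivSubgroupOf (S : Subgroup G) H) (fun x => rfl)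
  exact ⟨hiso.saturated hsat, _, hiso.isNormal hQn, hiso.isCentric hQc⟩

theorem isSylIn_subgroupOf_of_subnormal [Finite G] {p : ℕ} [Fact p.Prime] (S : Sylow p G)
    (hF : (groupFusionSystem (S : Subgroup G)).IsConstrained p) (H : Subgroup G)
    (hH : H.IsSubnormal) : ∃ R : Sylow p ↥H, (R : Subgroup ↥H) = (S : Subgroup G).subgroupOf H := by
  obtain ⟨⟨R, hR⟩, -⟩ := constrained_subnormal S hF hH
  exact ⟨R, by rw [hR, Subgroup.inf_subgroupOf_right]⟩

end Cfsg.Agent.H88
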